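/-
Thompson and Baumann subgroups of a 2-subgroup (elementary abelian version), in element form.
-/
import Cfsg.Agent.Lib.G.GenCent
import Cfsg.Agent.Lib.G.Nil
import Cfsg.Agent.Lib.G.Sylow

set_option autoImplicit false

namespace CA.ZN

open Cfsg Subgroup CA

variable {G : Type*} [Group G] {A A' B T U X Y : Subgroup G} {x y g : G}

/-- elementary abelian 2-group -/
def EA (A : Subgroup G) : Prop := ∀ a ∈ A, a * a = 1

theorem comm_of_sq {a b : G} (ha : a * a = 1) (hb : b * b = 1) (hab : a * b * (a * b) = 1) :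
    a * b = b * a := by
  have h1 : a⁻¹ = a := inv_eq_of_mul_eq_one_right ha
  have h2 : b⁻¹ = b := inv_eq_of_mul_eq_one_right hb
  have h3 : (a * b)⁻¹ = a * b := inv_eq_of_mul_eq_one_right hab
  rw [← h3, mul_inv_rev, h1, h2]

theorem EA.comm (h : EA A) (hx : x ∈ A) (hy : y ∈ A) : x * y = y * x :=
  comm_of_sq (h x hx) (h y hy) (h _ (A.mul_mem hx hy))

theorem EA.inv (h : EA A) (hx : x ∈ A) : x⁻¹ = x := inv_eq_of_mul_eq_one_right (h x hx)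

theorem EA.cents (h : EA A) : A ≤ 𝐂(A) := cents_iff.2 fun _ ha _ hb => h.comm ha hb

theorem EA.abelian (h : EA A) : IsMulCommutative A := abelian_iff.2 h.cents

theorem EA.of_le (h : EA A) (hle : A' ≤ A) : EA A' := fun a ha => h a (hle ha)

theorem EA.cj (h : EA A) (g : G) : EA (cj g A) := by
  intro a ha
  obtain ⟨y, hy, rfl⟩ := mem_cj'.1 ha
  rw [show g * y * g⁻¹ * (g * y * g⁻¹) = g * (y * y) * g⁻¹ by group, h y hy]; group

theorem EA.sup (h : EA A) (h' : EA A') (hc : A' ≤ 𝐂(A)) : EA (A ⊔ A') := by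
  intro z hz
  obtain ⟨a, ha, b, hb, rfl⟩ := (mem_sup_of_norm_right (norms_of_cents hc)).1 hz
  have e : a * b = b * a := mem_cent_iff.1 (hc hb) a ha
  calc a * b * (a * b) = a * (b * a) * b := by group
    _ = (a * a) * (b * b) := by rw [← e]; group
    _ = 1 := by rw [h a ha, h' b hb, one_mul]

theorem mem_zpowers_inv (hx : x * x = 1) : y ∈ zpowers x ↔ y = 1 ∨ y = x := by
  constructor
  · rintro ⟨k, rfl⟩
    have h2 : x ^ (2 : ℤ) = 1 := by rw [zpow_two, hx]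
    rcases Int.even_or_odd' k with ⟨j, rfl | rfl⟩
    · left; simp only; rw [zpow_mul, h2, one_zpow]
    · right; simp only; rw [zpow_add, zpow_mul, h2, one_zpow, one_mul, zpow_one]
  · rintro (rfl | rfl)
    · exact one_mem _
    · exact mem_zpowers _

theorem EA.zpowers (hx : x * x = 1) : EA (zpowers x) := by
  intro a ha
  rcases (mem_zpowers_inv hx).1 ha with rfl | rfl
  · exact one_mul 1
  · exact hx

theorem EA.bot : EA (⊥ : Subgroup G) := by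
  intro a ha; rw [mem_bot.1 ha, one_mul]

theorem EA.isPGroup (h : EA A) : IsPGroup 2 A := by
  intro a
  exact ⟨1, Subtype.ext (by simpa [pow_two] using h a a.2)⟩

theorem EA.piGrp [Finite G] (h : EA A) : PiGrp {2} A := h.isPGroup.piGrp Nat.prime_two

theorem EA.elemAb (h : EA A) : IsElementaryAbelian 2 A := by
  refine ⟨h.abelian, ?_⟩
  intro a ha
  rw [pow_two]; exact h a ha

theorem mem_sup_zpowers_inv (hx : x * x = 1) (hn : x ∈ 𝐍(A)) :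
    y ∈ A ⊔ zpowers x ↔ y ∈ A ∨ y * x ∈ A := by
  rw [mem_sup_of_norm_right (zpowers_le.2 hn)]
  constructor
  · rintro ⟨a, ha, b, hb, rfl⟩
    rcases (mem_zpowers_inv hx).1 hb with rfl | rfl
    · left; simpa using ha
    · right; rw [mul_assoc, hx, mul_one]; exact ha
  · rintro (h | h)
    · exact ⟨y, h, 1, one_mem _, mul_one _⟩
    · exact ⟨y * x, h, x, mem_zpowers x, by rw [mul_assoc, hx, mul_one]⟩

/-- `Ω₁(Z(T))` -/
def Om (T : Subgroup G) : Subgroup G where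
  carrier := {z | z ∈ T ∧ z * z = 1 ∧ ∀ s ∈ T, s * z = z * s}
  one_mem' := ⟨T.one_mem, one_mul 1, fun s _ => by simp⟩
  mul_mem' := by
    rintro a b ⟨ha, ha2, hac⟩ ⟨hb, hb2, hbc⟩
    refine ⟨T.mul_mem ha hb, ?_, fun s hs => ?_⟩
    · calc a * b * (a * b) = a * (b * a) * b := by group
        _ = (a * a) * (b * b) := by rw [hac b hb]; group
        _ = 1 := by rw [ha2, hb2, one_mul]
    · rw [← mul_assoc, hac s hs, mul_assoc, hbc s hs, mul_assoc]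
  inv_mem' := by
    rintro a ⟨ha, ha2, hac⟩
    rw [inv_eq_of_mul_eq_one_right ha2]
    exact ⟨ha, ha2, hac⟩

theorem mem_Om : x ∈ Om T ↔ x ∈ T ∧ x * x = 1 ∧ ∀ s ∈ T, s * x = x * s := Iff.rfl

theorem Om_le (T : Subgroup G) : Om T ≤ T := fun _ h => h.1

theorem Om_ea (T : Subgroup G) : EA (Om T) := fun _ h => h.2.1

theorem Om_cents (T : Subgroup G) : Om T ≤ 𝐂(T) := fun _ h => mem_cent_iff.2 h.2.2

theorem le_cent_Om (T : Subgroup G) : T ≤ 𝐂(Om T) := cents_symm (Om_cents T)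

theorem mem_Om_of (h1 : x ∈ T) (h2 : x * x = 1) (h3 : x ∈ 𝐂(T)) : x ∈ Om T :=
  ⟨h1, h2, mem_cent_iff.1 h3⟩

theorem le_Om (h1 : A ≤ T) (h2 : EA A) (h3 : A ≤ 𝐂(T)) : A ≤ Om T :=
  fun a ha => mem_Om_of (h1 ha) (h2 a ha) (h3 ha)

theorem Om_le_Om (h1 : Om U ≤ T) (h2 : T ≤ U) : Om U ≤ Om T :=
  le_Om h1 (Om_ea U) ((Om_cents U).trans (cent_mono h2))

theorem cj_Om_le (g : G) (T : Subgroup G) : cj g (Om T) ≤ Om (cj g T) :=
  le_Om (cj_mono g (Om_le T)) ((Om_ea T).cj g) (by rw [← cj_centralizer]; exact cj_mono g (Om_cents T))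

theorem cj_Om (g : G) (T : Subgroup G) : cj g (Om T) = Om (cj g T) := by
  refine le_antisymm (cj_Om_le g T) (le_cj_iff.2 ?_)
  have := cj_Om_le g⁻¹ (cj g T)
  rwa [cj_cj, inv_mul_cancel, cj_one] at this

theorem norms_Om (h : X ≤ 𝐍(T)) : X ≤ 𝐍(Om T) := fun g hg => by
  rw [mem_normalizer_iff_cj, cj_Om, cj_eq_of_mem_normalizer (h hg)]

theorem Om_ne_bot [Finite G] (hT : PiGrp {2} T) (h : T ≠ ⊥) : Om T ≠ ⊥ := by
  have hp := hT.isPGroup Nat.prime_two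
  obtain ⟨x, h1, h2, h3, h4⟩ := exists_order_p_fixed hp (le_normalizer) (hT.dvd_card_of_ne_bot h)
  exact ne_bot_of_mem (mem_Om_of h1 (by rwa [pow_two] at h4) h2) h3

/-- the largest order of an elementary abelian subgroup -/
noncomputable def mm (T : Subgroup G) : ℕ := sSup {n | ∃ A : Subgroup G, A ≤ T ∧ EA A ∧ Nat.card A = n}

/-- `A ∈ 𝒜(T)` -/
def Aa (T A : Subgroup G) : Prop := A ≤ T ∧ EA A ∧ Nat.card A = mm T

theorem Aa.le (h : Aa T A) : A ≤ T := h.1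
theorem Aa.ea (h : Aa T A) : EA A := h.2.1
theorem Aa.card (h : Aa T A) : Nat.card A = mm T := h.2.2

/-- Thompson subgroup -/
def JJ (T : Subgroup G) : Subgroup G := sSup {A | Aa T A}

/-- Baumann subgroup -/
def Bm (T : Subgroup G) : Subgroup G := T ⊓ 𝐂(Om (JJ T))

theorem Aa.le_JJ (h : Aa T A) : A ≤ JJ T := le_sSup h

theorem JJ_le (T : Subgroup G) : JJ T ≤ T := sSup_le fun _ h => h.le

theorem JJ_le_of (h : ∀ A, Aa T A → A ≤ X) : JJ T ≤ X := sSup_le h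

theorem Bm_le (T : Subgroup G) : Bm T ≤ T := inf_le_left

theorem JJ_le_Bm (T : Subgroup G) : JJ T ≤ Bm T := le_inf (JJ_le T) (le_cent_Om _)

theorem mm_cj (g : G) (T : Subgroup G) : mm (cj g T) = mm T := by
  unfold mm
  congr 1
  ext n
  constructor
  · rintro ⟨A, h1, h2, rfl⟩
    exact ⟨cj g⁻¹ A, le_cj_iff.1 h1, h2.cj _, card_cj _ _⟩
  · rintro ⟨A, h1, h2, rfl⟩
    exact ⟨cj g A, cj_mono g h1, h2.cj _, card_cj _ _⟩

theorem Aa.cj (h : Aa T A) (g : G) : Aa (cj g T) (cj g A) :=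
  ⟨cj_mono g h.le, h.ea.cj g, by rw [card_cj, mm_cj, h.card]⟩

theorem cj_JJ_le (g : G) (T : Subgroup G) : cj g (JJ T) ≤ JJ (cj g T) :=
  cj_le_iff.2 (JJ_le_of fun _ h => cj_le_iff.1 (h.cj g).le_JJ)

theorem cj_JJ (g : G) (T : Subgroup G) : cj g (JJ T) = JJ (cj g T) := by
  refine le_antisymm (cj_JJ_le g T) (le_cj_iff.2 ?_)
  have := cj_JJ_le g⁻¹ (cj g T)
  rwa [cj_cj, inv_mul_cancel, cj_one] at this

theorem cj_Bm (g : G) (T : Subgroup G) : cj g (Bm T) = Bm (cj g T) := by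
  rw [Bm, Bm, cj_inf, cj_centralizer, cj_Om, cj_JJ]

theorem norms_JJ (h : X ≤ 𝐍(T)) : X ≤ 𝐍(JJ T) := fun g hg => by
  rw [mem_normalizer_iff_cj, cj_JJ, cj_eq_of_mem_normalizer (h hg)]

theorem norms_Bm (h : X ≤ 𝐍(T)) : X ≤ 𝐍(Bm T) := fun g hg => by
  rw [mem_normalizer_iff_cj, cj_Bm, cj_eq_of_mem_normalizer (h hg)]

variable [Finite G]

theorem bdd_mm (T : Subgroup G) : BddAbove {n | ∃ A : Subgroup G, A ≤ T ∧ EA A ∧ Nat.card A = n} :=
  ⟨Nat.card T, by rintro n ⟨A, h, -, rfl⟩; exact card_le_of_le' h⟩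

theorem card_le_mm (h1 : A ≤ T) (h2 : EA A) : Nat.card A ≤ mm T := le_csSup (bdd_mm T) ⟨A, h1, h2, rfl⟩

theorem exists_Aa (T : Subgroup G) : ∃ A, Aa T A :=
  Nat.sSup_mem (s := {n | ∃ A : Subgroup G, A ≤ T ∧ EA A ∧ Nat.card A = n})
    ⟨_, ⊥, bot_le, EA.bot, rfl⟩ (bdd_mm T)

theorem Aa.of_card (h1 : A ≤ T) (h2 : EA A) (h3 : mm T ≤ Nat.card A) : Aa T A :=
  ⟨h1, h2, le_antisymm (card_le_mm h1 h2) h3⟩

theorem mm_mono (h : T ≤ U) : mm T ≤ mm U := by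
  obtain ⟨A, hA⟩ := exists_Aa T
  exact hA.card ▸ card_le_mm (hA.le.trans h) hA.ea

theorem Aa.le_of (h : Aa T A) (h1 : A' ≤ T) (h2 : EA A') (h3 : A' ≤ 𝐂(A)) : A' ≤ A := by
  have := eq_of_le_of_card_le (le_sup_left : A ≤ A ⊔ A')
    (h.card ▸ card_le_mm (sup_le h.le h1) (h.ea.sup h2 h3))
  exact this ▸ le_sup_right

theorem Aa.mem_of (h : Aa T A) (h1 : x ∈ T) (h2 : x * x = 1) (h3 : x ∈ 𝐂(A)) : x ∈ A :=
  zpowers_le.1 (h.le_of (zpowers_le.2 h1) (EA.zpowers h2) (zpowers_le.2 h3))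

theorem Aa.of_mm_eq (h : Aa T A) (hle : T ≤ U) (he : mm U ≤ mm T) : Aa U A :=
  Aa.of_card (h.le.trans hle) h.ea (h.card ▸ he)

theorem Aa.restrict (h : Aa U A) (h1 : A ≤ T) (hle : T ≤ U) : Aa T A :=
  Aa.of_card h1 h.ea (h.card ▸ mm_mono hle)

theorem Aa.mm_eq (h : Aa U A) (h1 : A ≤ T) (hle : T ≤ U) : mm T = mm U :=
  (h.restrict h1 hle).card.symm.trans h.card

theorem JJ_mono (hle : T ≤ U) (he : mm U ≤ mm T) : JJ T ≤ JJ U :=
  JJ_le_of fun _ h => (h.of_mm_eq hle he).le_JJ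

theorem mm_eq_of_JJ_le (h1 : JJ U ≤ T) (hle : T ≤ U) : mm T = mm U := by
  obtain ⟨A, hA⟩ := exists_Aa U
  exact hA.mm_eq (hA.le_JJ.trans h1) hle

theorem JJ_eq_of_le (h1 : JJ U ≤ T) (hle : T ≤ U) : JJ T = JJ U :=
  le_antisymm (JJ_mono hle (mm_eq_of_JJ_le h1 hle).ge)
    (JJ_le_of fun _ h => (h.restrict (h.le_JJ.trans h1) hle).le_JJ)

theorem Aa.OmJ_le (h : Aa T A) : Om (JJ T) ≤ A :=
  h.le_of ((Om_le _).trans (JJ_le T)) (Om_ea _) ((Om_cents _).trans (cent_mono h.le_JJ))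

theorem Aa.Om_le (h : Aa T A) : Om T ≤ A :=
  h.le_of (ZN.Om_le _) (Om_ea _) ((Om_cents _).trans (cent_mono h.le))

theorem mem_OmJ (h1 : x ∈ T) (h2 : x * x = 1) (h3 : x ∈ 𝐂(JJ T)) : x ∈ Om (JJ T) := by
  obtain ⟨A, hA⟩ := exists_Aa T
  exact mem_Om_of (hA.le_JJ (hA.mem_of h1 h2 (cent_mono hA.le_JJ h3))) h2 h3

theorem Om_le_OmJ (T : Subgroup G) : Om T ≤ Om (JJ T) := fun _ hx =>
  mem_OmJ hx.1 hx.2.1 (cent_mono (JJ_le T) (Om_cents T hx))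

theorem JJ_Bm (T : Subgroup G) : JJ (Bm T) = JJ T := JJ_eq_of_le (JJ_le_Bm T) (Bm_le T)

theorem mm_Bm (T : Subgroup G) : mm (Bm T) = mm T := mm_eq_of_JJ_le (JJ_le_Bm T) (Bm_le T)

theorem Aa_Bm : Aa (Bm T) A ↔ Aa T A :=
  ⟨fun h => h.of_mm_eq (Bm_le T) (mm_Bm T).ge, fun h => h.restrict (h.le_JJ.trans (JJ_le_Bm T)) (Bm_le T)⟩

theorem Bm_Bm (T : Subgroup G) : Bm (Bm T) = Bm T := by
  conv_lhs => rw [Bm, JJ_Bm]
  exact inf_eq_left.2 inf_le_right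

theorem Om_Bm (T : Subgroup G) : Om (Bm T) = Om (JJ T) := by
  refine le_antisymm ?_ (le_Om ((Om_le _).trans (JJ_le_Bm T)) (Om_ea _) (cents_symm inf_le_right))
  have := Om_le_OmJ (Bm T)
  rwa [JJ_Bm] at this

theorem Bm_eq (T : Subgroup G) : Bm T = T ⊓ 𝐂(Om (Bm T)) := by rw [Om_Bm]; rfl

theorem Om_le_OmB (T : Subgroup G) : Om T ≤ Om (Bm T) := by rw [Om_Bm]; exact Om_le_OmJ T

theorem Bm_ne_bot (hT : PiGrp {2} T) (h : T ≠ ⊥) : Bm T ≠ ⊥ := fun e =>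
  Om_ne_bot hT h (le_bot_iff.1 ((Om_le_OmB T).trans ((Om_le _).trans e.le)))

/-- the lexicographic size used to choose the Baumann subgroup -/
noncomputable def mu (T : Subgroup G) : ℕ ×ₗ ℕ ×ₗ ℕ := toLex (mm T, toLex (Nat.card (JJ T), Nat.card (Bm T)))

theorem mu_aux (hle : T ≤ U) : mu T < mu U ∨ (mu T = mu U ∧ Bm T = Bm U) := by
  rcases (mm_mono hle).lt_or_eq with h | h
  · exact Or.inl (Prod.Lex.toLex_lt_toLex.2 (Or.inl h))
  have hJ := JJ_mono hle h.ge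
  rcases (card_le_of_le' hJ).lt_or_eq with h2 | h2
  · exact Or.inl (Prod.Lex.toLex_lt_toLex.2 (Or.inr ⟨h, Prod.Lex.toLex_lt_toLex.2 (Or.inl h2)⟩))
  have e := eq_of_le_of_card_eq hJ h2
  have hB : Bm T ≤ Bm U := by rw [Bm, Bm, e]; exact inf_le_inf_right _ hle
  rcases (card_le_of_le' hB).lt_or_eq with h3 | h3
  · exact Or.inl (Prod.Lex.toLex_lt_toLex.2 (Or.inr ⟨h, Prod.Lex.toLex_lt_toLex.2 (Or.inr ⟨h2, h3⟩)⟩))
  · exact Or.inr ⟨by rw [mu, mu, h, h2, h3], eq_of_le_of_card_eq hB h3⟩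

theorem mu_mono (hle : T ≤ U) : mu T ≤ mu U := by
  rcases mu_aux hle with h | h
  · exact h.le
  · exact h.1.le

theorem Bm_eq_of_mu (hle : T ≤ U) (h : mu U ≤ mu T) : Bm U = Bm T := by
  rcases mu_aux hle with h1 | h1
  · exact absurd h h1.not_ge
  · exact h1.2.symm

theorem mu_Bm (T : Subgroup G) : mu (Bm T) = mu T := by rw [mu, mu, mm_Bm, JJ_Bm, Bm_Bm]

omit [Finite G] in
theorem mu_cj (g : G) (T : Subgroup G) : mu (cj g T) = mu T := by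
  rw [mu, mu, mm_cj, ← cj_JJ, ← cj_Bm, card_cj, card_cj]

end CA.ZN
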