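/-
Minimal parabolics over a Baumann subgroup: `P / O₂(P) ≅ S₃` with a natural module.
-/
import Cfsg.Agent.Lib.ZN.J

set_option autoImplicit false
set_option linter.unusedSectionVars false

namespace CA.ZN

open Cfsg Subgroup CA

variable {G : Type*} [Group G] {A B K L P P' X : Subgroup G} {a b x y z g h r w : G}

/-- `O₂(X)` -/
abbrev O2 (X : Subgroup G) : Subgroup G := piCoreOf {2} X

theorem idx2 (hi : K.relIndex L = 2) (ha : a ∈ L) (hb : b ∈ L) (ha' : a ∉ K) (hb' : b ∉ K) : a * b ∈ K := by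
  have := (mul_mem_iff_of_index_two (H := K.subgroupOf L) hi (a := ⟨a, ha⟩) (b := ⟨b, hb⟩)).2
    (by simp [mem_subgroupOf, ha', hb'])
  simpa [mem_subgroupOf] using this

theorem idx2_of (ha : a ∈ L) (ha' : a ∉ K) (h : ∀ b ∈ L, b ∈ K ∨ b * a ∈ K) : K.relIndex L = 2 := by
  refine index_eq_two_iff.2 ⟨⟨a, ha⟩, fun b => ?_⟩
  simp only [mem_subgroupOf, coe_mul]
  rcases h b b.2 with k | k
  · exact Or.inr ⟨k, fun k' => ha' ((K.mul_mem_cancel_left k).1 k')⟩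
  · exact Or.inl ⟨k, fun k' => ha' ((K.mul_mem_cancel_left k').1 k)⟩

theorem exists_not_mem_of_idx {n : ℕ} (hi : K.relIndex L = n) (hn : n ≠ 1) : ∃ a ∈ L, a ∉ K := by
  by_contra h
  push Not at h
  exact hn (hi ▸ relIndex_eq_one.2 h)

theorem idx3 (hi : K.relIndex L = 3) {c d : G} (ha : a ∈ L) (hb : b ∈ L) (hc : c ∈ L) (hd : d ∈ L)
    (h1 : a⁻¹ * b ∉ K) (h2 : a⁻¹ * c ∉ K) (h3 : b⁻¹ * c ∉ K) :
    a⁻¹ * d ∈ K ∨ b⁻¹ * d ∈ K ∨ c⁻¹ * d ∈ K := by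
  classical
  have key : ∀ {u v : G} (hu : u ∈ L) (hv : v ∈ L),
      ((⟨u, hu⟩ : L) : L ⧸ K.subgroupOf L) = (⟨v, hv⟩ : L) ↔ u⁻¹ * v ∈ K := by
    intro u v hu hv
    rw [QuotientGroup.eq, mem_subgroupOf]; rfl
  have hf : Finite (L ⧸ K.subgroupOf L) := Nat.finite_of_card_ne_zero (by
    have : Nat.card (L ⧸ K.subgroupOf L) = 3 := hi
    omega)
  have := Fintype.ofFinite (L ⧸ K.subgroupOf L)
  by_contra hn
  push Not at hn
  obtain ⟨n1, n2, n3⟩ := hn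
  rw [← key ha hb] at h1
  rw [← key ha hc] at h2
  rw [← key hb hc] at h3
  rw [← key ha hd] at n1
  rw [← key hb hd] at n2
  rw [← key hc hd] at n3
  have h4 := Finset.card_le_univ ({((⟨a, ha⟩ : L) : L ⧸ K.subgroupOf L), ((⟨b, hb⟩ : L) : L ⧸ K.subgroupOf L),
    ((⟨c, hc⟩ : L) : L ⧸ K.subgroupOf L), ((⟨d, hd⟩ : L) : L ⧸ K.subgroupOf L)})
  rw [Finset.card_insert_of_notMem (by simp [h1, h2, n1]), Finset.card_insert_of_notMem (by simp [h3, n2]),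
    Finset.card_pair n3, ← Nat.card_eq_fintype_card] at h4
  have : Nat.card (L ⧸ K.subgroupOf L) = 3 := hi
  omega

theorem conj_eq_iff_comm : g * x * g⁻¹ = x ↔ g * x = x * g := mul_inv_eq_iff_eq_mul

/-- `P` is a minimal parabolic over `B` -/
structure Intr (B P : Subgroup G) : Prop where
  p2 : PiGrp {2} B
  le : B ≤ P
  i3 : B.relIndex P = 3
  i2 : (O2 P).relIndex B = 2
  nc : ¬ P ≤ 𝐂(Om B)
  zq : Om B ≤ O2 P
  off : ∃ A, Aa B A ∧ ¬ A ≤ O2 P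

/-- the natural module of a minimal parabolic -/
def WW (P : Subgroup G) : Subgroup G := ⁅Om (O2 P), P⁆

theorem cj_O2 (g : G) (P : Subgroup G) : cj g (O2 P) = O2 (cj g P) := cj_piCoreOf g _ P

theorem cj_WW (g : G) (P : Subgroup G) : cj g (WW P) = WW (cj g P) := by
  rw [WW, WW, cj_commutator, cj_Om, cj_O2]

theorem norms_WW (h : X ≤ 𝐍(P)) : X ≤ 𝐍(WW P) := fun g hg => by
  rw [mem_normalizer_iff_cj, cj_WW, cj_eq_of_mem_normalizer (h hg)]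

theorem le_norm_WW (P : Subgroup G) : P ≤ 𝐍(WW P) := norms_WW le_normalizer

theorem le_norm_ZP (P : Subgroup G) : P ≤ 𝐍(Om (O2 P)) := norms_Om (piCoreOf_norm _ P)

theorem WW_le (P : Subgroup G) : WW P ≤ Om (O2 P) := comm_le_left (le_norm_ZP P)

theorem Intr.cj (h : Intr B P) (g : G) : Intr (cj g B) (cj g P) := by
  obtain ⟨A, h1, h2⟩ := h.off
  refine ⟨h.p2.cj g, cj_mono g h.le, by rw [relIndex_cj, h.i3], by rw [← cj_O2, relIndex_cj, h.i2], ?_, ?_,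
    _, h1.cj g, ?_⟩
  · rw [← cj_Om, ← cj_centralizer, cj_le_cj]; exact h.nc
  · rw [← cj_Om, ← cj_O2, cj_le_cj]; exact h.zq
  · rw [← cj_O2, cj_le_cj]; exact h2

variable [Finite G]

namespace Intr

variable (I : Intr B P)
include I

theorem syl : SylowIn 2 B P :=
  sylowIn_mk Nat.prime_two I.le (I.p2.isPGroup Nat.prime_two) (by rw [I.i3]; decide)

theorem q_le : O2 P ≤ B := I.syl.piCoreOf_le

theorem mul_q (ha : a ∈ B) (hb : b ∈ B) (ha' : a ∉ O2 P) (hb' : b ∉ O2 P) : a * b ∈ O2 P :=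
  idx2 I.i2 ha hb ha' hb'

theorem exists_a : ∃ a ∈ B, a ∉ O2 P := exists_not_mem_of_idx I.i2 (by decide)

theorem not_norm : ¬ P ≤ 𝐍(B) := fun h => by
  obtain ⟨a, ha, ha'⟩ := I.exists_a
  exact ha' (le_piCoreOf ⟨I.le, h⟩ I.p2 ha)

theorem gen (hg : g ∈ P) (hg' : g ∉ B) (h1 : B ≤ X) (h2 : g ∈ X) : P ≤ X := by
  rw [← CovBy.eq_sup_zpowers (covBy_of_relIndex_prime I.le (by rw [I.i3]; decide)) hg hg']
  exact sup_le h1 (zpowers_le.2 h2)

theorem inter (hg : g ∈ P) (hg' : g ∉ B) (hx : x ∈ B) (h : g * x * g⁻¹ ∈ B) : x ∈ O2 P := by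
  by_contra hx'
  refine I.not_norm (I.gen hg hg' le_normalizer (mem_normalizer_of_cj_le (cj_le_iff'.2 fun y hy => ?_)))
  have k : ∀ q ∈ O2 P, g * q * g⁻¹ ∈ B := fun q hq =>
    I.q_le (conj_mem_of_mem_normalizer (piCoreOf_norm _ P hg) hq)
  by_cases hy' : y ∈ O2 P
  · exact k y hy'
  · have := B.mul_mem (k _ (I.mul_q hy hx hy' hx')) (B.inv_mem h)
    convert this using 1; group

theorem conj_not_mem (hg : g ∈ P) (hg' : g ∉ B) (hx : x ∈ B) (hx' : x ∉ O2 P) : g * x * g⁻¹ ∉ B :=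
  fun h => hx' (I.inter hg hg' hx h)

theorem dc {g' : G} (hg : g ∈ P) (hg1 : g ∉ B) (hg' : g' ∈ P) (hg1' : g' ∉ B) (ha : a ∈ B) (ha' : a ∉ O2 P) :
    g⁻¹ * g' ∈ B ∨ (a * g)⁻¹ * g' ∈ B := by
  have := idx3 I.i3 P.one_mem hg (P.mul_mem (I.le ha) hg) hg' (by simpa using hg1)
    (by simpa [B.mul_mem_cancel_left ha] using hg1)
    (by
      have := I.conj_not_mem (P.inv_mem hg) (by simpa using hg1) ha ha'
      simpa [mul_assoc] using this)
  simpa [hg1'] using this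

theorem dc' {g' : G} (hg : g ∈ P) (hg1 : g ∉ B) (hg' : g' ∈ P) (hg1' : g' ∉ B) :
    ∃ b ∈ B, ∃ b' ∈ B, g' = b * g * b' := by
  obtain ⟨a, ha, ha'⟩ := I.exists_a
  rcases I.dc hg hg1 hg' hg1' ha ha' with k | k
  · exact ⟨1, B.one_mem, _, k, by group⟩
  · exact ⟨a, ha, _, k, by group⟩

theorem card_P : Nat.card P = Nat.card B * 3 := by rw [← I.i3, card_mul_relIndex I.le]

theorem card_B : Nat.card B = Nat.card (O2 P) * 2 := by rw [← I.i2, card_mul_relIndex I.q_le]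

theorem exists_h : ∃ h ∈ P, h ∉ B ∧ h ^ 3 = 1 := by
  obtain ⟨h, h1, h2⟩ := exists_orderOf_eq_prime (A := P) Nat.prime_three (by rw [I.card_P]; simp)
  refine ⟨h, h1, fun k => ?_, by rw [← h2, pow_orderOf_eq_one]⟩
  have := I.p2.piElt k 3 Nat.prime_three (by rw [h2])
  simp at this

theorem z_le : Om B ≤ Om (O2 P) := Om_le_Om I.zq I.q_le

theorem cent_zp (hx : x ∈ P) (h : x ∈ 𝐂(Om (O2 P))) : x ∈ O2 P := by
  have hle : P ⊓ 𝐂(Om (O2 P)) ≤ B := fun y hy => by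
    by_contra n
    exact I.nc (I.gen hy.1 n (le_cent_Om B) (cent_mono I.z_le hy.2))
  exact le_piCoreOf (normalIn_inf_of_norm (norms_cent (le_norm_ZP P))) (I.p2.of_le hle) ⟨hx, h⟩

theorem central_of_comm (hz : z ∈ 𝐂(B)) (hg : g ∈ P) (hg' : g ∉ B) (h : g * z = z * g) : z ∈ 𝐂(P) :=
  mem_cent_iff_le_cent1.2 (I.gen hg hg' (mem_cent_iff_le_cent1.1 hz) (mem_cent1_iff.2 h))

theorem central_of (hz : z ∈ 𝐂(B)) (hg : g ∈ P) (hg' : g ∉ B) (h : g * z * g⁻¹ ∈ 𝐂(B)) : z ∈ 𝐂(P) := by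
  obtain ⟨a, ha, ha'⟩ := I.exists_a
  refine I.central_of_comm hz (g := g⁻¹ * a * g⁻¹⁻¹) (P.mul_mem (P.mul_mem (P.inv_mem hg) (I.le ha))
    (P.inv_mem (P.inv_mem hg))) (I.conj_not_mem (P.inv_mem hg) (by simpa using hg') ha ha') ?_
  have := mem_cent_iff.1 h a ha
  calc g⁻¹ * a * g⁻¹⁻¹ * z = g⁻¹ * (a * (g * z * g⁻¹)) * g := by group
    _ = z * (g⁻¹ * a * g⁻¹⁻¹) := by rw [this]; group

theorem zp_idx : (Om B).relIndex (Om (O2 P)) = 2 := by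
  obtain ⟨A, hA, hA'⟩ := I.off
  obtain ⟨a, ha, ha'⟩ := SetLike.not_le_iff_exists.1 hA'
  have i1 : (A ⊓ O2 P).relIndex A = 2 := idx2_of ha (fun k => ha' k.2) fun b hb => by
    by_cases k : b ∈ O2 P
    · exact Or.inl ⟨hb, k⟩
    · exact Or.inr ⟨A.mul_mem hb ha, I.mul_q (hA.le hb) (hA.le ha) k ha'⟩
  have c1 := card_mul_relIndex (inf_le_left : A ⊓ O2 P ≤ A)
  have hc : Om (O2 P) ≤ 𝐂((A ⊓ O2 P : Subgroup G)) := (Om_cents _).trans (cent_mono inf_le_right)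
  have c2 := card_sup_mul_card_inf (Or.inl (norms_of_cents hc))
  have c3 := card_le_mm (sup_le (inf_le_left.trans hA.le) ((Om_le _).trans I.q_le))
    ((hA.ea.of_le inf_le_left).sup (Om_ea _) hc)
  have c4 : A ⊓ O2 P ⊓ Om (O2 P) ≤ Om B := by
    rintro y ⟨⟨y1, y2⟩, y3⟩
    refine ⟨hA.le y1, y3.2.1, fun s hs => ?_⟩
    by_cases k : s ∈ O2 P
    · exact y3.2.2 s k
    · have e1 := y3.2.2 _ (I.mul_q hs (hA.le ha) k ha')
      have e2 := hA.ea.comm ha y1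
      rw [mul_assoc, e2, ← mul_assoc, ← mul_assoc] at e1
      exact mul_right_cancel e1
  have c5 := card_le_of_le' c4
  have c6 := card_mul_relIndex I.z_le
  have c7 : ¬ Om (O2 P) ≤ Om B := fun k => by
    obtain ⟨a, ha, ha'⟩ := I.exists_a
    exact ha' (I.cent_zp (I.le ha) (cent_mono k (le_cent_Om B ha)))
  have c8 := one_lt_relIndex c7
  rw [← hA.card, ← c1, i1] at c3
  have p1 := card_pos' (A ⊓ O2 P)
  have p2 := card_pos' (Om B)
  have c9 : Nat.card ↥(A ⊓ O2 P) * Nat.card (Om (O2 P)) ≤ Nat.card ↥(A ⊓ O2 P) * (Nat.card (Om B) * 2) := by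
    rw [← c2]
    calc _ ≤ Nat.card ↥(A ⊓ O2 P) * 2 * Nat.card (Om B) := Nat.mul_le_mul c3 c5
      _ = _ := by ring
  have c10 := Nat.le_of_mul_le_mul_left c9 p1
  rw [← c6] at c10
  have := Nat.le_of_mul_le_mul_left c10 p2
  omega

end Intr

/-- coordinates on the natural module -/
structure Dat (B P : Subgroup G) (r w : G) : Prop where
  rz : r ∈ Om B
  r1 : r ≠ 1
  wz : w ∈ Om (O2 P)
  wn : w ∉ Om B
  act : ∀ b ∈ B, b ∉ O2 P → b * w * b⁻¹ = w * r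
  zp : ∀ y ∈ Om (O2 P), y ∈ Om B ∨ y * w ∈ Om B
  out : ∀ g ∈ P, g ∉ B → g * r * g⁻¹ = w ∨ g * r * g⁻¹ = w * r
  zc : ∀ z ∈ Om B, z ∈ 𝐂(P) ∨ z * r ∈ 𝐂(P)
  mem : ∀ y, y ∈ WW P ↔ y = 1 ∨ y = r ∨ y = w ∨ y = w * r

theorem Intr.exists_dat (I : Intr B P) : ∃ r w, Dat B P r w := by
  obtain ⟨h, hP, hB, h3⟩ := I.exists_h
  obtain ⟨r0, hr0, hr0'⟩ := SetLike.not_le_iff_exists.1 (fun k => I.nc (cents_symm k))
  have hzp : ∀ g ∈ P, ∀ y ∈ Om (O2 P), g * y * g⁻¹ ∈ Om (O2 P) := fun g hg y hy =>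
    conj_mem_of_mem_normalizer (le_norm_ZP P hg) hy
  have hout : ∀ g ∈ P, g ∉ B → ∀ z ∈ Om B, z ∉ 𝐂(P) → g * z * g⁻¹ ∉ Om B := fun g hg hg' z hz hz' k =>
    hz' (I.central_of (Om_cents B hz) hg hg' (Om_cents B k))
  have hi : h * h = h⁻¹ := by rw [eq_inv_iff_mul_eq_one, ← h3, pow_three, mul_assoc]
  have hB2 : h⁻¹ ∉ B := by simpa using hB
  have ea := Om_ea (O2 P)
  obtain ⟨r, hr, hr', hs⟩ : ∃ r ∈ Om B, r ∉ 𝐂(P) ∧ h⁻¹ * r * h = h * r * h⁻¹ * r := by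
    have m0 := I.z_le hr0
    have m1 := hzp h hP r0 m0
    have m2 := hzp h⁻¹ (P.inv_mem hP) r0 m0
    have n1 := hout h hP hB r0 hr0 hr0'
    have n2 := hout h⁻¹ (P.inv_mem hP) hB2 r0 hr0 hr0'
    have m3 := idx2 I.zp_idx m1 m2 n1 n2
    have e1 : h * (h * r0 * h⁻¹) * h⁻¹ = h⁻¹ * r0 * h⁻¹⁻¹ := by
      rw [show h * (h * r0 * h⁻¹) * h⁻¹ = (h * h) * r0 * (h * h)⁻¹ by group, hi]
    have e2 : h * (h⁻¹ * r0 * h⁻¹⁻¹) * h⁻¹ = r0 := by group
    have e3 : h⁻¹ * (h * r0 * h⁻¹) * h = r0 := by group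
    have e4 : h⁻¹ * (h⁻¹ * r0 * h⁻¹⁻¹) * h = h * r0 * h⁻¹ := by
      rw [inv_inv, show h⁻¹ * (h⁻¹ * r0 * h) * h = (h * h)⁻¹ * r0 * (h * h) by group, hi, inv_inv]
    generalize h * r0 * h⁻¹ = r1 at *
    generalize h⁻¹ * r0 * h⁻¹⁻¹ = r2 at *
    have e5 : h * (r1 * r2) * h⁻¹ = r2 * r0 := by rw [← e2, ← e1]; group
    have e6 : h⁻¹ * (r1 * r2) * h = r0 * r1 := by rw [← e3, ← e4]; group
    refine ⟨r1 * r2, m3, fun k => n1 ?_, ?_⟩
    · have e7 := conj_eq_iff_comm.2 (mem_cent_iff.1 k h hP)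
      rw [e5, ea.comm m2 m0] at e7
      rw [← mul_right_cancel e7]; exact hr0
    · rw [e5, e6]
      calc r0 * r1 = r0 * r1 * (r2 * r2) := by rw [ea r2 m2, mul_one]
        _ = (r0 * r1 * r2) * r2 := by group
        _ = r2 * r0 * (r1 * r2) := by
          rw [← ea.comm m2 (mul_mem (mul_mem m0 m1) m2)]; group
  have m0 := I.z_le hr
  have m1 := hzp h hP r m0
  have n1 := hout h hP hB r hr hr'
  have rc : ∀ b ∈ B, b * r * b⁻¹ = r := fun b hb => conj_eq_iff_comm.2 (hr.2.2 b hb)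
  have act : ∀ b ∈ B, b ∉ O2 P → b * (h * r * h⁻¹) * b⁻¹ = h * r * h⁻¹ * r := by
    intro b hb hb'
    have k1 : h⁻¹ * h⁻¹ ∉ B := by
      rw [← mul_inv_rev, hi, inv_inv]; exact hB
    have k := (I.dc hP hB (P.inv_mem hP) hB2 hb hb').resolve_left k1
    rw [← hs]
    conv_lhs => rw [← rc _ k]
    group
  have out : ∀ g ∈ P, g ∉ B → g * r * g⁻¹ = h * r * h⁻¹ ∨ g * r * g⁻¹ = h * r * h⁻¹ * r := by
    intro g hg hg'
    obtain ⟨a, ha, ha'⟩ := I.exists_a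
    rcases I.dc hP hB hg hg' ha ha' with k | k
    · left; conv_rhs => rw [← rc _ k]
      group
    · right; rw [← act a ha ha']
      conv_rhs => rw [← rc _ k]
      group
  have zc : ∀ z ∈ Om B, z ∈ 𝐂(P) ∨ z * r ∈ 𝐂(P) := by
    intro z hz
    by_cases k : z ∈ 𝐂(P)
    · exact Or.inl k
    · refine Or.inr (I.central_of (Om_cents B (mul_mem hz hr)) hP hB (Om_cents B ?_))
      have := idx2 I.zp_idx (hzp h hP z (I.z_le hz)) m1 (hout h hP hB z hz k) n1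
      convert this using 1; group
  have zp : ∀ y ∈ Om (O2 P), y ∈ Om B ∨ y * (h * r * h⁻¹) ∈ Om B := fun y hy => by
    by_cases k : y ∈ Om B
    · exact Or.inl k
    · exact Or.inr (idx2 I.zp_idx hy m1 k n1)
  have hw : h * (h * r * h⁻¹) * h⁻¹ = h * r * h⁻¹ * r := by
    rw [← hs, show h * (h * r * h⁻¹) * h⁻¹ = (h * h) * r * (h * h)⁻¹ by group, hi, inv_inv]
  refine ⟨r, h * r * h⁻¹, hr, fun e => hr' (e ▸ one_mem _), m1, n1, act, zp, out, zc, ?_⟩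
  generalize hwd : h * r * h⁻¹ = w at *
  have rr := ea r m0
  have ww := ea w m1
  have rw' := ea.comm m0 m1
  have hm : ∀ y, y ∈ zpowers r ⊔ zpowers w ↔ y = 1 ∨ y = r ∨ y = w ∨ y = w * r := by
    intro y
    rw [mem_sup_zpowers_inv ww (norms_of_cents (cents_symm (zpowers_le.2 (by
      rw [cent_zpowers, mem_cent1_iff, rw']))) (mem_zpowers w)), mem_zpowers_inv rr, mem_zpowers_inv rr,
      ← eq_mul_inv_iff_mul_eq, ← eq_mul_inv_iff_mul_eq, ea.inv m1, one_mul, rw', or_assoc]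
  have r0 : r ∈ zpowers r ⊔ zpowers w := (hm r).2 (by simp)
  have w0 : w ∈ zpowers r ⊔ zpowers w := (hm w).2 (by simp)
  have nn : ∀ g, g * r * g⁻¹ ∈ zpowers r ⊔ zpowers w → g * w * g⁻¹ ∈ zpowers r ⊔ zpowers w →
      g ∈ 𝐍((zpowers r ⊔ zpowers w : Subgroup G)) := fun g a b =>
    mem_normalizer_of_cj_le (by
      rw [cj_sup, cj_zpowers, cj_zpowers]; exact sup_le (zpowers_le.2 a) (zpowers_le.2 b))
  have hn : P ≤ 𝐍((zpowers r ⊔ zpowers w : Subgroup G)) := by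
    refine I.gen hP hB (fun b hb => nn b (by rw [rc b hb]; exact r0) ?_) (nn h (hwd ▸ w0) ?_)
    · by_cases k : b ∈ O2 P
      · rw [conj_eq_iff_comm.2 (m1.2.2 b k)]; exact w0
      · rw [act b hb k]; exact mul_mem w0 r0
    · rw [hw]; exact mul_mem w0 r0
  have he : WW P = zpowers r ⊔ zpowers w := by
    apply le_antisymm
    · refine comm_le_iff.2 fun y hy p hp => ?_
      obtain ⟨c, hc, u, hu, rfl⟩ : ∃ c ∈ 𝐂(P), ∃ u ∈ zpowers r ⊔ zpowers w, y = c * u := by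
        rcases zp y hy with k | k
        · rcases zc y k with k | k
          · exact ⟨y, k, 1, one_mem _, by group⟩
          · exact ⟨_, k, r⁻¹, inv_mem r0, by group⟩
        · rcases zc _ k with k | k
          · exact ⟨_, k, w⁻¹, inv_mem w0, by group⟩
          · exact ⟨_, k, (w * r)⁻¹, inv_mem (mul_mem w0 r0), by group⟩
      have uP : u ∈ P := by
        have : zpowers r ⊔ zpowers w ≤ P := sup_le (zpowers_le.2 (I.le hr.1))
          (zpowers_le.2 (I.le (I.q_le m1.1)))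
        exact this hu
      have e := conj_eq_iff_comm.2 (mem_cent_iff'.1 hc (u * p * u⁻¹) (mul_mem (mul_mem uP hp) (inv_mem uP)))
      rw [show c * u * p * (c * u)⁻¹ * p⁻¹ = (c * (u * p * u⁻¹) * c⁻¹) * p⁻¹ by group, e,
        show u * p * u⁻¹ * p⁻¹ = u * (p * u⁻¹ * p⁻¹) by group]
      exact mul_mem hu (conj_mem_of_mem_normalizer (hn hp) (inv_mem hu))
    · obtain ⟨a, ha, ha'⟩ := I.exists_a
      have k : r ∈ WW P := by
        have := comm_mem m1 (I.le ha)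
        rw [show w * a * w⁻¹ * a⁻¹ = w * (a * w * a⁻¹)⁻¹ by group, act a ha ha', ← rw',
          show w * (r * w)⁻¹ = r⁻¹ by group] at this
        exact (inv_mem_iff (H := WW P)).1 this
      exact sup_le (zpowers_le.2 k) (zpowers_le.2 (hwd ▸ conj_mem_of_mem_normalizer (le_norm_WW P hP) k))
  rw [he]; exact hm

namespace Dat

variable (D : Dat B P r w)
include D

theorem rr : r * r = 1 := D.rz.2.1

theorem ww : w * w = 1 := D.wz.2.1

theorem wrn : w * r ∉ Om B := fun k => D.wn ((mul_mem_cancel_right D.rz).1 k)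

theorem rW : r ∈ WW P := (D.mem r).2 (by simp)

theorem wW : w ∈ WW P := (D.mem w).2 (by simp)

theorem wrW : w * r ∈ WW P := (D.mem _).2 (by simp)

theorem inter (hy : y ∈ WW P) (hz : y ∈ Om B) : y = 1 ∨ y = r := by
  rcases (D.mem y).1 hy with k | k | k | k
  · exact Or.inl k
  · exact Or.inr k
  · exact absurd (k ▸ hz) D.wn
  · exact absurd (k ▸ hz) D.wrn

theorem out_not (hg : g ∈ P) (hg' : g ∉ B) : g * r * g⁻¹ ∉ Om B := by
  rcases D.out g hg hg' with k | k <;> rw [k]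
  · exact D.wn
  · exact D.wrn

theorem mem_B (hg : g ∈ P) (h : g * r = r * g) : g ∈ B := by
  by_contra n
  exact D.out_not hg n (by rw [conj_eq_iff_comm.2 h]; exact D.rz)

theorem fixB (hb : b ∈ B) : b * r * b⁻¹ = r := conj_eq_iff_comm.2 (D.rz.2.2 b hb)

theorem act' (hy : y ∈ Om (O2 P)) (hy' : y ∉ Om B) (hb : b ∈ B) (hb' : b ∉ O2 P) : b * y * b⁻¹ = y * r := by
  have k := (D.zp y hy).resolve_left hy'
  have e : y = y * w * w := by rw [mul_assoc, D.ww, mul_one]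
  have e2 := conj_eq_iff_comm.2 (k.2.2 b hb)
  calc b * y * b⁻¹ = (b * (y * w) * b⁻¹) * (b * w * b⁻¹) := by conv_lhs => rw [e]
                                                               group
    _ = y * r := by rw [e2, D.act b hb hb', ← mul_assoc, ← e]

theorem conj_or (hy : y ∈ Om (O2 P)) (hb : b ∈ B) : b * y * b⁻¹ = y ∨ b * y * b⁻¹ = y * r := by
  by_cases h1 : b ∈ O2 P
  · exact Or.inl (conj_eq_iff_comm.2 (hy.2.2 b h1))
  by_cases h2 : y ∈ Om B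
  · exact Or.inl (conj_eq_iff_comm.2 (h2.2.2 b hb))
  · exact Or.inr (D.act' hy h2 hb h1)

theorem mem_q (hy : y ∈ Om (O2 P)) (hy' : y ∉ Om B) (hb : b ∈ B) (h : b * y = y * b) : b ∈ O2 P := by
  by_contra n
  have := D.act' hy hy' hb n
  rw [conj_eq_iff_comm.2 h] at this
  exact D.r1 (by simpa using this)

theorem cj (g : G) : Dat (cj g B) (cj g P) (g * r * g⁻¹) (g * w * g⁻¹) := by
  have c : ∀ (X : Subgroup G) (x : G), g * x * g⁻¹ ∈ CA.cj g X ↔ x ∈ X := fun X x => by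
    rw [mem_cj, show g⁻¹ * (g * x * g⁻¹) * g = x by group]
  have s : ∀ x : G, ∃ y, x = g * y * g⁻¹ := fun x => ⟨g⁻¹ * x * g, by group⟩
  have m : ∀ x y : G, g * x * g⁻¹ * (g * y * g⁻¹) = g * (x * y) * g⁻¹ := fun x y => by group
  have m3 : ∀ x y : G, g * x * g⁻¹ * (g * y * g⁻¹) * (g * x * g⁻¹)⁻¹ = g * (x * y * x⁻¹) * g⁻¹ :=
    fun x y => by group
  refine ⟨?_, ?_, ?_, ?_, fun b hb hb' => ?_, fun y hy => ?_, fun b hb hb' => ?_, fun y hy => ?_, fun y => ?_⟩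
  · rw [← cj_Om, c]; exact D.rz
  · simpa using D.r1
  · rw [← cj_O2, ← cj_Om, c]; exact D.wz
  · rw [← cj_Om, c]; exact D.wn
  · obtain ⟨b, rfl⟩ := s b
    rw [← cj_O2, c] at hb'
    rw [m3, m, D.act b ((c _ _).1 hb) hb']
  · obtain ⟨y, rfl⟩ := s y
    rw [← cj_O2, ← cj_Om, c] at hy
    rw [m, ← cj_Om, c, c]; exact D.zp y hy
  · obtain ⟨b, rfl⟩ := s b
    rw [c] at hb hb'
    rw [m3, m]
    exact (D.out b hb hb').imp (fun k => by rw [k]) (fun k => by rw [k])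
  · obtain ⟨y, rfl⟩ := s y
    rw [← cj_Om, c] at hy
    rw [m, ← cj_centralizer, c, c]; exact D.zc y hy
  · obtain ⟨y, rfl⟩ := s y
    rw [← cj_WW, c, D.mem, m]
    simp

variable (I : Intr B P)
include I

theorem r_nc : r ∉ 𝐂(P) := fun k => by
  obtain ⟨h, h1, h2, -⟩ := I.exists_h
  exact h2 (D.mem_B h1 (mem_cent_iff.1 k h h1))

theorem rw_comm : r * w = w * r := (Om_ea _).comm (I.z_le D.rz) D.wz

theorem exists_conj (hy : y ∈ WW P) (h1 : y ≠ 1) : ∃ g ∈ P, g * r * g⁻¹ = y := by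
  obtain ⟨h, h1', h2, -⟩ := I.exists_h
  obtain ⟨a, ha, ha'⟩ := I.exists_a
  have e1 := D.act a ha ha'
  have e2 : a * (w * r) * a⁻¹ = w := by
    rw [show a * (w * r) * a⁻¹ = a * w * a⁻¹ * (a * r * a⁻¹) by group, e1, D.fixB ha, mul_assoc, D.rr, mul_one]
  have e3 : a * h * r * (a * h)⁻¹ = a * (h * r * h⁻¹) * a⁻¹ := by group
  have m := P.mul_mem (I.le ha) h1'
  rcases (D.mem y).1 hy with k | k | k | k
  · exact absurd k h1
  · exact ⟨1, P.one_mem, by simp [k]⟩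
  · rcases D.out h h1' h2 with j | j
    · exact ⟨h, h1', j.trans k.symm⟩
    · exact ⟨_, m, by rw [e3, j, e2, k]⟩
  · rcases D.out h h1' h2 with j | j
    · exact ⟨_, m, by rw [e3, j, e1, k]⟩
    · exact ⟨h, h1', j.trans k.symm⟩

theorem cent_W (hx : x * r = r * x) (hx' : x * w = w * x) : x ∈ 𝐂(WW P) := by
  refine mem_cent_iff'.2 fun y hy => ?_
  rcases (D.mem y).1 hy with rfl | rfl | rfl | rfl
  · simp
  · exact hx
  · exact hx'
  · rw [← mul_assoc, hx', mul_assoc, hx, mul_assoc]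

theorem exists_cent (hx : x ∈ 𝐍(WW P)) : ∃ p ∈ P, p⁻¹ * x ∈ 𝐂(WW P) := by
  obtain ⟨g, hg, e⟩ := D.exists_conj I (conj_mem_of_mem_normalizer hx D.rW) (by simpa using D.r1)
  have e1 : g⁻¹ * x * r * (g⁻¹ * x)⁻¹ = r := by
    rw [show g⁻¹ * x * r * (g⁻¹ * x)⁻¹ = g⁻¹ * (x * r * x⁻¹) * g by group, ← e]; group
  have hn : g⁻¹ * x ∈ 𝐍(WW P) := mul_mem (inv_mem (le_norm_WW P hg)) hx
  rcases (D.mem _).1 (conj_mem_of_mem_normalizer hn D.wW) with k | k | k | k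
  · exact absurd (conj_eq_one_iff.1 k) (fun e : w = 1 => D.wn (e ▸ one_mem _))
  · rw [← e1] at k
    exact absurd (by simpa using k) (fun e : w = r => D.wn (e ▸ D.rz))
  · exact ⟨g, hg, D.cent_W I (conj_eq_iff_comm.1 e1) (conj_eq_iff_comm.1 k)⟩
  · obtain ⟨a, ha, ha'⟩ := I.exists_a
    refine ⟨g * a, P.mul_mem hg (I.le ha), D.cent_W I (conj_eq_iff_comm.1 ?_) (conj_eq_iff_comm.1 ?_)⟩
    · rw [show (g * a)⁻¹ * x * r * ((g * a)⁻¹ * x)⁻¹ = a⁻¹ * (g⁻¹ * x * r * (g⁻¹ * x)⁻¹) * a⁻¹⁻¹ by group, e1,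
        D.fixB (B.inv_mem ha)]
    · rw [show (g * a)⁻¹ * x * w * ((g * a)⁻¹ * x)⁻¹ = a⁻¹ * (g⁻¹ * x * w * (g⁻¹ * x)⁻¹) * a by group, k,
        ← D.act a ha ha']
      group

theorem cent_W_le (hx : x ∈ P) (h : x ∈ 𝐂(WW P)) : x ∈ O2 P :=
  D.mem_q D.wz D.wn (D.mem_B hx (mem_cent_iff'.1 h r D.rW)) (mem_cent_iff'.1 h w D.wW)

end Dat

theorem Intr.W_ne_bot (I : Intr B P) : WW P ≠ ⊥ := by
  obtain ⟨r, w, D⟩ := I.exists_dat
  exact ne_bot_of_mem D.rW D.r1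

theorem Intr.W_le (I : Intr B P) : WW P ≤ B := (WW_le P).trans ((Om_le _).trans I.q_le)

theorem Intr.eq_of_le (I : Intr B P) (I' : Intr B P') (h : P ≤ P') : P = P' :=
  eq_of_le_of_card_eq h (by rw [I.card_P, I'.card_P])

end CA.ZN
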