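/-
Transvections over `F₂` in a group with an odd self-centralizing normal subgroup.
-/
import Cfsg.Agent.Lib.ZN.J

set_option autoImplicit false
set_option linter.unusedSectionVars false

namespace CA.ZN

open Cfsg Subgroup CA

variable {Γ : Type*} [Group Γ] {M : Type*} [AddCommGroup M] [DistribMulAction Γ M]

/-- `t` is a transvection with vector `v` -/
def Tv (t : Γ) (v : M) : Prop := v ≠ 0 ∧ (∀ u : M, t • u = u ∨ t • u = u + v) ∧ ∃ u : M, t • u ≠ u

/-- faithful `F₂`-module with an odd self-centralizing normal subgroup `F` -/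
structure MH (M : Type*) [AddCommGroup M] [DistribMulAction Γ M] (F : Subgroup Γ) : Prop where
  two : ∀ u : M, u + u = 0
  faith : ∀ g : Γ, (∀ u : M, g • u = u) → g = 1
  conj : ∀ g : Γ, ∀ x ∈ F, g * x * g⁻¹ ∈ F
  odd : ∀ x ∈ F, Odd (orderOf x)
  sc : ∀ g : Γ, (∀ x ∈ F, g * x = x * g) → g ∈ F

/-- `F`-class -/
def Cl (F : Subgroup Γ) (s t : Γ) : Prop := ∃ x ∈ F, s = x * t * x⁻¹

variable {F : Subgroup Γ} {s t t1 r g : Γ} {v v' v1 w u : M}

theorem Cl.refl (t : Γ) : Cl F t t := ⟨1, F.one_mem, by group⟩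

theorem Cl.symm (h : Cl F s t) : Cl F t s := by
  obtain ⟨x, hx, rfl⟩ := h
  exact ⟨x⁻¹, F.inv_mem hx, by group⟩

theorem Cl.trans (h : Cl F r s) (h' : Cl F s t) : Cl F r t := by
  obtain ⟨x, hx, rfl⟩ := h
  obtain ⟨y, hy, rfl⟩ := h'
  exact ⟨x * y, F.mul_mem hx hy, by group⟩

theorem Tv.ne (h : Tv t v) : v ≠ 0 := h.1

theorem Tv.or (h : Tv t v) (u : M) : t • u = u ∨ t • u = u + v := h.2.1 u

theorem Tv.exists_move (h : Tv t v) : ∃ u : M, t • u = u + v := by
  obtain ⟨u, hu⟩ := h.2.2
  exact ⟨u, (h.or u).resolve_left hu⟩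

theorem Tv.move (h : Tv t v) (hu : t • u ≠ u) : t • u = u + v := (h.or u).resolve_left hu

theorem Tv.uniq (h : Tv t v) (h' : Tv t v') : v = v' := by
  obtain ⟨u, hu⟩ := h.2.2
  exact add_left_cancel ((h.move hu).symm.trans (h'.move hu))

theorem Tv.conj (h : Tv t v) (g : Γ) : Tv (g * t * g⁻¹) (g • v) := by
  refine ⟨fun e => h.ne ((smul_eq_zero_iff_eq g).1 e), fun u => ?_, ?_⟩
  · rcases h.or (g⁻¹ • u) with e | e
    · left; rw [mul_smul, mul_smul, e, smul_inv_smul]
    · right; rw [mul_smul, mul_smul, e, smul_add, smul_inv_smul]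
  · obtain ⟨u, hu⟩ := h.2.2
    refine ⟨g • u, fun e => hu ?_⟩
    rw [mul_smul, mul_smul, inv_smul_smul] at e
    exact smul_left_cancel g e

theorem Tv.ne_one (h : Tv t v) : t ≠ 1 := by
  rintro rfl
  obtain ⟨u, hu⟩ := h.2.2
  exact hu (one_smul _ u)

namespace MH

variable (H : MH M F)
include H

theorem cancel (a b : M) : a + b + b = a := by rw [add_assoc, H.two, add_zero]

theorem eq_of_add (a b : M) (h : a + b = 0) : a = b := by
  have := congrArg (· + b) h
  simpa [H.cancel] using this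

theorem fix (h : Tv t v) : t • v = v := by
  obtain ⟨u, hu⟩ := h.exists_move
  rcases h.or (u + v) with e | e
  · rw [← hu] at e
    have := smul_left_cancel t e
    rw [hu] at this
    exact absurd (by simpa using this) h.ne
  · rw [smul_add, hu] at e
    exact add_left_cancel e

theorem sq (h : Tv t v) : t * t = 1 := by
  refine H.faith _ fun u => ?_
  rcases h.or u with e | e
  · rw [mul_smul, e, e]
  · rw [mul_smul, e, smul_add, e, H.fix h, H.cancel]

theorem inv (h : Tv t v) : t⁻¹ = t := inv_eq_of_mul_eq_one_right (H.sq h)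

theorem eq_one_of_pow {x : Γ} (hx : x ∈ F) (k : ℕ) (h : x ^ 2 ^ k = 1) : x = 1 := by
  have h1 := orderOf_dvd_of_pow_eq_one h
  have h2 : (orderOf x).Coprime (2 ^ k) := ((Nat.coprime_two_right.2 (H.odd x hx))).pow_right k
  exact orderOf_eq_one_iff.1 (h2.eq_one_of_dvd h1)

theorem comm (hs : Tv s v') (ht : Tv t v) (h1 : s • v = v) (h2 : t • v' = v') : s * t = t * s := by
  have : ∀ u : M, (s * t) • u = (t * s) • u := by
    intro u
    rcases hs.or u with a | a <;> rcases ht.or u with b | b <;>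
      simp only [mul_smul, a, b, smul_add, h1, h2]
    abel
  have h3 := H.faith ((t * s)⁻¹ * (s * t)) fun u => by rw [mul_smul, this, inv_smul_smul]
  rw [inv_mul_eq_one] at h3
  exact h3.symm

theorem pow4 (hs : Tv s v') (ht : Tv t v) (h1 : s • v = v) (h2 : t • v' = v' + v) :
    (s * t) ^ 2 ^ 2 = 1 := by
  refine H.faith _ fun u => ?_
  have e1 := H.fix hs
  have e2 := H.fix ht
  have a1 := H.two v
  have a2 := H.two v'
  rcases hs.or u with a | a <;> rcases ht.or u with b | b <;>
    simp only [show (2 : ℕ) ^ 2 = 4 from rfl, pow_succ, pow_zero, one_mul, mul_smul, a, b, smul_add, h1, h2,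
      e1, e2]
  · linear_combination (norm := abel) (2 : ℕ) • a1
  · linear_combination (norm := abel) (3 : ℕ) • a1 + (2 : ℕ) • a2
  · linear_combination (norm := abel) (5 : ℕ) • a1 + (2 : ℕ) • a2

theorem pow3 (hs : Tv s v') (ht : Tv t v) (h1 : s • v = v + v') (h2 : t • v' = v' + v) :
    (s * t) ^ 3 = 1 := by
  refine H.faith _ fun u => ?_
  have e1 := H.fix hs
  have e2 := H.fix ht
  have a1 := H.two v
  have a2 := H.two v'
  rcases hs.or u with a | a <;> rcases ht.or u with b | b <;>
    simp only [pow_succ, pow_zero, one_mul, mul_smul, a, b, smul_add, h1, h2, e1, e2]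
  · linear_combination (norm := abel) (4 : ℕ) • a1 + (6 : ℕ) • a2
  · linear_combination (norm := abel) (2 : ℕ) • a1 + (4 : ℕ) • a2
  · linear_combination (norm := abel) (6 : ℕ) • a1 + (10 : ℕ) • a2

theorem Cl_conj (h : Cl F s t) (g : Γ) : Cl F (g * s * g⁻¹) (g * t * g⁻¹) := by
  obtain ⟨x, hx, rfl⟩ := h
  exact ⟨g * x * g⁻¹, H.conj g x hx, by group⟩

theorem Cl_mul_mem (ht : t * t = 1) (h : Cl F s t) : s * t ∈ F := by
  obtain ⟨x, hx, rfl⟩ := h
  have := H.conj t _ (F.inv_mem hx)
  rw [inv_eq_of_mul_eq_one_right ht] at this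
  convert F.mul_mem hx this using 1; group

theorem Cl_tv (ht : Tv t v) (h : Cl F s t) : ∃ v' : M, Tv s v' := by
  obtain ⟨x, -, rfl⟩ := h
  exact ⟨_, ht.conj x⟩

theorem moves_aux (hs : Tv s v') (ht : Tv t v) (hm : s * t ∈ F) (hne : s ≠ t) : s • v = v + v' := by
  by_contra h1
  have h1 := (hs.or v).resolve_right h1
  apply hne
  have h3 : s * t = 1 := by
    rcases ht.or v' with h2 | h2
    · refine H.eq_one_of_pow hm 1 ?_
      have := H.comm hs ht h1 h2
      calc (s * t) ^ 2 ^ 1 = s * (t * s) * t := by rw [pow_one, pow_two]; group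
        _ = (s * s) * (t * t) := by rw [← this]; group
        _ = 1 := by rw [H.sq hs, H.sq ht, one_mul]
    · exact H.eq_one_of_pow hm 2 (H.pow4 hs ht h1 h2)
  rw [← H.inv ht]; exact eq_inv_of_mul_eq_one_left h3

/-- distinct transvections of one class move each other's vectors -/
theorem moves (hs : Tv s v') (ht : Tv t v) (h : Cl F s t) (hne : s ≠ t) : s • v = v + v' :=
  H.moves_aux hs ht (H.Cl_mul_mem (H.sq ht) h) hne

theorem cube (hs : Tv s v') (ht : Tv t v) (h : Cl F s t) (hne : s ≠ t) : (s * t) ^ 3 = 1 :=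
  H.pow3 hs ht (H.moves hs ht h hne) (H.moves ht hs h.symm hne.symm)

theorem eq_of_fix (hs : Tv s v') (ht : Tv t v) (h : Cl F s t) (hf : s • v = v) : s = t := by
  by_contra hne
  have := H.moves hs ht h hne
  rw [hf] at this
  exact hs.ne (by simpa using this)

theorem exists_ne (ht : Tv t v) : ∃ x ∈ F, x * t * x⁻¹ ≠ t := by
  by_contra hn
  push Not at hn
  have h1 : t ∈ F := H.sc t fun x hx => by
    have := hn x hx
    rw [mul_inv_eq_iff_eq_mul] at this
    exact this.symm
  exact ht.ne_one (H.eq_one_of_pow h1 1 (by rw [pow_one, pow_two, H.sq ht]))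

theorem Cl_tst (ht : Tv t v) (h : Cl F s t) : Cl F (t * s * t) t := by
  have := H.Cl_conj h t
  rwa [H.inv ht, mul_assoc t t t, H.sq ht, mul_one] at this

theorem tv_tst (ht : Tv t v) (h1 : Tv t1 v1) (h : Cl F t1 t) (hne : t1 ≠ t) : Tv (t * t1 * t) (v1 + v) := by
  have := h1.conj t
  rwa [H.inv ht, H.moves ht h1 h.symm hne.symm] at this

/-- a class has three elements -/
theorem three (ht : Tv t v) (h1 : Tv t1 v1) (h : Cl F t1 t) (hne : t1 ≠ t) (hs : Cl F s t) :
    s = t ∨ s = t1 ∨ s = t * t1 * t := by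
  by_contra hn
  push Not at hn
  obtain ⟨n1, n2, n3⟩ := hn
  obtain ⟨v', hv'⟩ := H.Cl_tv ht hs
  have a := H.moves ht hv' hs.symm n1.symm
  have b := H.moves h1 hv' (h.trans hs.symm) n2.symm
  have c := H.moves (H.tv_tst ht h1 h hne) hv' ((H.Cl_tst ht h).trans hs.symm) n3.symm
  have d := H.moves h1 ht h hne
  have e := H.moves ht h1 h.symm hne.symm
  simp only [mul_smul, a, b, d, e, smul_add, H.fix ht] at c
  have a1 := H.two v
  have a2 := H.two v1
  apply (H.tv_tst ht h1 h hne).ne
  linear_combination (norm := abel) -c + (2 : ℕ) • a1 + a2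

/-- transvections of different classes fix each other's vectors -/
theorem fixes (hs : Tv s v') (ht : Tv t v) (h : ¬ Cl F s t) : s • v = v := by
  obtain ⟨x, hx, hne⟩ := H.exists_ne ht
  have c1 : Cl F (x * t * x⁻¹) t := ⟨x, hx, rfl⟩
  have h1 := ht.conj x
  generalize x * t * x⁻¹ = t1 at hne c1 h1
  generalize x • v = v1 at h1
  have d := H.moves h1 ht c1 hne
  have e := H.moves ht h1 c1.symm hne.symm
  have a1 := H.two v
  have a2 := H.two v1
  have hf : t * t1 ∈ F := H.Cl_mul_mem (H.sq h1) c1.symm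
  have f3 := H.cube ht h1 c1.symm hne.symm
  have fv : (t * t1) • v = v1 := by
    rw [mul_smul, d, smul_add, e, H.fix ht]; linear_combination (norm := abel) a1
  have fv1 : (t * t1) • v1 = v1 + v := by rw [mul_smul, H.fix h1, e]
  have fW : ∀ u : M, (t * t1) • u = u ∨ (t * t1) • u = u + v ∨ (t * t1) • u = u + v1 ∨
      (t * t1) • u = u + (v1 + v) := by
    intro u
    rcases ht.or u with a | a <;> rcases h1.or u with b | b <;> simp only [mul_smul, a, b, smul_add, e]
    · simp
    · simp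
    · simp
    · right; right; left; linear_combination (norm := abel) a1
  generalize t * t1 = f at hf f3 fv fv1 fW
  have hs' := hs.conj f
  have cs : Cl F (f * s * f⁻¹) s := ⟨f, hf, rfl⟩
  by_cases hc : f * s * f⁻¹ = s
  · rw [hc] at hs'
    have k := hs'.uniq hs
    have hc' : ∀ u : M, s • f • u = f • s • u := fun u => by
      rw [← mul_smul, ← mul_smul, ← mul_inv_eq_iff_eq_mul.1 hc]
    by_contra n
    have n := hs.move n
    have k1 : s • v1 = v1 + v' := by rw [← fv, hc', n, smul_add, k]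
    have k2 : s • (v1 + v) = v1 + v + v' := by rw [← fv1, hc', k1, smul_add, k]
    rw [smul_add, k1, n] at k2
    exact hs.ne (by linear_combination (norm := abel) k2)
  · exfalso
    have m1 := H.moves hs hs' cs.symm (Ne.symm hc)
    have hs'' := hs'.conj f
    have cs' : Cl F (f * (f * s * f⁻¹) * f⁻¹) s := Cl.trans ⟨f, hf, rfl⟩ cs
    have k : f • f • v' = f • v' + v' := by
      rcases H.three hs hs' cs hc cs' with k | k | k
      · exfalso; apply hc
        calc f * s * f⁻¹ = f * (f * (f * s * f⁻¹) * f⁻¹) * f⁻¹ := by rw [k]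
          _ = f ^ 3 * s * (f ^ 3)⁻¹ := by rw [pow_three]; group
          _ = s := by rw [f3]; group
      · exfalso; apply hc
        calc f * s * f⁻¹ = f⁻¹ * (f * (f * s * f⁻¹) * f⁻¹) * f := by group
          _ = s := by rw [k]; group
      · rw [k] at hs''
        exact hs''.uniq (H.tv_tst hs hs' cs hc)
    have nv : f • v' ≠ v' := fun e => by
      rw [e, H.fix hs] at m1
      exact hs.ne (by simpa using m1)
    obtain ⟨t', c', ht'⟩ : ∃ t', Cl F t' t ∧ Tv t' v' := by
      rcases fW (f • v') with k' | k' | k' | k' <;> rw [k] at k'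
      · exact absurd (by simpa using k') hs.ne
      · exact ⟨t, Cl.refl t, add_left_cancel k' ▸ ht⟩
      · exact ⟨t1, c1, add_left_cancel k' ▸ h1⟩
      · exact ⟨_, H.Cl_tst ht c1, add_left_cancel k' ▸ H.tv_tst ht h1 c1 hne⟩
    have m2 : t' • f • v' = f • v' + v' := by
      refine H.moves ht' (ht'.conj f) (Cl.symm ⟨f, hf, rfl⟩) fun e => nv ?_
      have := ht'.conj f
      rw [← e] at this
      exact this.uniq ht'
    have a3 := H.two v'
    have m3 : (s * t') • f • v' = f • v' := by
      rw [mul_smul, m2, smul_add, m1, H.fix hs]; linear_combination (norm := abel) a3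
    have m4 : s * t' = 1 := by
      by_contra n
      have hr : Tv (s * t') v' := by
        refine ⟨hs.ne, fun u => ?_, ?_⟩
        · rcases hs.or u with a | a <;> rcases ht'.or u with b | b <;>
            simp only [mul_smul, a, b, smul_add, H.fix hs]
          · simp
          · simp
          · simp
          · left; exact H.cancel _ _
        · by_contra n'
          push Not at n'
          exact n (H.faith _ n')
      have := H.eq_of_fix hr (hr.conj f) (Cl.symm ⟨f, hf, rfl⟩) m3
      have h5 := hr.conj f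
      rw [← this] at h5
      exact nv (h5.uniq hr)
    apply h
    rw [eq_inv_of_mul_eq_one_left m4, H.inv ht']
    exact c'

theorem comm_of_not_Cl (hs : Tv s v') (ht : Tv t v) (h : ¬ Cl F s t) : s * t = t * s :=
  H.comm hs ht (H.fixes hs ht h) (H.fixes ht hs fun c => h c.symm)

/-- every transvection normalizes every class -/
theorem Cl_conj_tv (hs : Tv s v') (ht : Tv t v) : Cl F (s * t * s⁻¹) t := by
  by_cases h : Cl F s t
  · exact ⟨s * t, H.Cl_mul_mem (H.sq ht) h, by group⟩
  · rw [H.comm_of_not_Cl hs ht h, mul_inv_cancel_right]; exact Cl.refl t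

omit H in
theorem fixed_aux [Finite Γ] {E : Subgroup Γ} (hE : EA E) (W : Set M) (hW : ∀ e ∈ E, ∀ w ∈ W, e • w + w ∈ W)
    (h2 : ∀ u : M, u + u = 0) (hw : w ∈ W) (h0 : w ≠ 0) : ∃ w ∈ W, w ≠ 0 ∧ ∀ e ∈ E, e • w = w := by
  obtain ⟨K, -, ⟨w, hw, h0, rfl⟩, hmax⟩ := exists_maximal_ge
    (fun K : Subgroup Γ => ∃ w ∈ W, w ≠ 0 ∧ K = MulAction.stabilizer Γ w ⊓ E) ⟨w, hw, h0, rfl⟩
  refine ⟨w, hw, h0, fun e he => ?_⟩
  by_contra n
  have n' : e • w + w ≠ 0 := fun k => n (by linear_combination (norm := abel) k - h2 w)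
  have := hmax _ ⟨_, hW e he w hw, n', rfl⟩ (by
    rintro y ⟨hy1, hy2⟩
    refine ⟨?_, hy2⟩
    have hy1 : y • w = w := hy1
    show y • (e • w + w) = e • w + w
    rw [smul_add, ← mul_smul, hE.comm hy2 he, mul_smul, hy1])
  have h3 : e ∈ MulAction.stabilizer Γ (e • w + w) ⊓ E := by
    refine ⟨?_, he⟩
    show e • (e • w + w) = e • w + w
    rw [smul_add, ← mul_smul, hE e he, one_smul, add_comm]
  rw [this] at h3
  exact n h3.1

/-- a hyperplane of `E` whose fixed points are not fixed by `e` -/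
theorem hyper [Finite Γ] {E : Subgroup Γ} (hE : EA E) {e : Γ} (he : e ∈ E) (h1 : e ≠ 1) :
    ∃ E₀ ≤ E, E₀.relIndex E ∣ 2 ∧ ∃ u : M, (∀ y ∈ E₀, y • u = u) ∧ e • u ≠ u := by
  by_contra hn
  push Not at hn
  have hFo : Odd (Nat.card F) := by
    by_contra h
    obtain ⟨x, hx, h2⟩ := exists_orderOf_eq_prime Nat.prime_two
      (even_iff_two_dvd.1 (Nat.not_odd_iff_even.1 h))
    have := H.odd x hx
    rw [h2] at this
    exact absurd this (by decide)
  have hc : (Nat.card F).Coprime (Nat.card E) := by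
    obtain ⟨k, hk⟩ := (piGrp_singleton_iff_card Nat.prime_two).1 hE.piGrp
    rw [hk]; exact (Nat.coprime_two_right.2 hFo).pow_right k
  have hn' : E ≤ 𝐍(F) := fun g _ => mem_normalizer_of_cj_le (cj_le_iff'.2 (H.conj g))
  have key : F ≤ 𝐂[e] := by
    refine le_of_cent_cocyclic hE.abelian hn' hc fun E₀ h0 hcy x hx => ?_
    have hfix := hn E₀ h0 (relIndex_dvd_of_cocyclic hE.elemAb h0 hcy)
    have hxc : ∀ y ∈ E₀, y * x = x * y := mem_cent_iff.1 hx.2
    have hyF : x * e * x⁻¹ * e⁻¹ ∈ F := by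
      have := F.mul_mem hx.1 (H.conj e _ (F.inv_mem hx.1))
      convert this using 1; group
    have hyc : ∀ y ∈ E₀, y * (x * e * x⁻¹ * e⁻¹) = (x * e * x⁻¹ * e⁻¹) * y := by
      intro y hy
      have a : Commute y x := hxc y hy
      have b : Commute y e := hE.comm (h0 hy) he
      exact ((a.mul_right b).mul_right a.inv_right).mul_right b.inv_right
    have hyfix : ∀ u : M, (∀ y ∈ E₀, y • u = u) → (x * e * x⁻¹ * e⁻¹) • u = u := by
      intro u hu
      have a := hfix u hu
      have b := hfix (x⁻¹ • u) fun y hy => by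
        have a : Commute y x := hxc y hy
        rw [← mul_smul, a.inv_right.eq, mul_smul, hu y hy]
      rw [mul_smul, mul_smul, mul_smul, inv_smul_eq_iff.2 a.symm, b, smul_inv_smul]
    have hy1 : x * e * x⁻¹ * e⁻¹ = 1 := by
      generalize x * e * x⁻¹ * e⁻¹ = y at hyF hyc hyfix
      refine H.faith y fun u => ?_
      by_contra n
      have n' : y • u + u ≠ 0 := fun k => n (H.eq_of_add _ _ k)
      obtain ⟨_, ⟨u, rfl⟩, h0', hf⟩ := fixed_aux (hE.of_le h0) (Set.range fun u : M => y • u + u)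
        (by
          rintro e' he' _ ⟨u, rfl⟩
          refine ⟨e' • u + u, ?_⟩
          simp only [smul_add]
          rw [← mul_smul y, ← hyc e' he', mul_smul]; abel) H.two ⟨u, rfl⟩ n'
      have a := hyfix _ hf
      simp only at a h0'
      have b : ∀ k : ℕ, y ^ k • u = u + k • (y • u + u) := by
        intro k
        induction k with
        | zero => simp
        | succ k ih =>
          rw [pow_succ', mul_smul, ih, smul_add, smul_comm y k, a, succ_nsmul]
          linear_combination (norm := abel) -H.two u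
      obtain ⟨j, hj⟩ := H.odd y hyF
      have c := b (orderOf y)
      rw [pow_orderOf_eq_one, one_smul, hj, add_nsmul, mul_nsmul', two_nsmul, H.two, zero_add, one_nsmul] at c
      exact h0' (by simpa using c)
    rw [mem_cent1_iff]
    rw [mul_inv_eq_one, mul_inv_eq_iff_eq_mul] at hy1
    exact hy1
  have h3 : e ∈ F := H.sc e fun x hx => (mem_cent1_iff.1 (key hx)).symm
  exact h1 (H.eq_one_of_pow h3 1 (by rw [pow_one, pow_two, hE e he]))

end MH

end CA.ZN
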