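/-
The module `Ω₁Z(O₂(N))` of a solvable group `N` of characteristic 2 satisfying the `Z`-condition.
-/
import Cfsg.Agent.Lib.ZN.Tv
import Cfsg.Agent.Lib.ZN.Intr

set_option autoImplicit false
set_option linter.unusedSectionVars false

namespace CA.ZN

open Cfsg Subgroup CA

universe u

variable {G : Type u} [Group G] [Finite G] {A B N U X P P' : Subgroup G} {a b c x y z g h : G}

/-- local hypotheses -/
structure LH (N : Subgroup G) : Prop where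
  c2 : N ⊓ 𝐂(O2 N) ≤ O2 N
  sol : Group.IsSolvable N
  zc : ∀ U, SylowIn 2 U N → N ⊓ 𝐂(Om U) ≤ 𝐍(U)

/-- `V = Ω₁Z(O₂(N))` -/
abbrev VV (N : Subgroup G) : Subgroup G := Om (O2 N)

theorem VV_le_N (N : Subgroup G) : VV N ≤ N := (Om_le _).trans (piCoreOf_le _ N)

theorem VV_cents (N : Subgroup G) : VV N ≤ 𝐂(VV N) := (Om_ea _).cents

theorem VV_le (hU : SylowIn 2 U N) : VV N ≤ U := (Om_le _).trans hU.piCoreOf_le

namespace LH

variable (L : LH N)
include L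

theorem Om_le_q (hU : SylowIn 2 U N) : Om U ≤ O2 N :=
  le_trans (le_inf ((Om_le U).trans hU.le) ((Om_cents U).trans (cent_mono hU.piCoreOf_le))) L.c2

theorem Om_le_V (hU : SylowIn 2 U N) : Om U ≤ VV N := Om_le_Om (L.Om_le_q hU) hU.piCoreOf_le

theorem cent_le (hU : SylowIn 2 U N) (h : Om U ≤ X) : N ⊓ 𝐂(X) ≤ 𝐍(U) :=
  (inf_le_inf_left N (cent_mono h)).trans (L.zc U hU)

theorem syl_cent (hU : SylowIn 2 U N) (h : Om U ≤ X) : SylowIn 2 (U ⊓ 𝐂(X)) (N ⊓ 𝐂(X)) := by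
  have := hU.inf_norm.normal_inf inf_le_right (le_inf inf_le_left (L.cent_le hU h))
  rwa [← inf_assoc, inf_eq_left.2 hU.le] at this

theorem core_cent (hU : SylowIn 2 U N) (h : Om U ≤ X) : O2 (N ⊓ 𝐂(X)) = U ⊓ 𝐂(X) :=
  (L.syl_cent hU h).piCoreOf_eq (norms_inf (L.cent_le hU h) (norms_self_of_le inf_le_right))

theorem norm_cent (hU : SylowIn 2 U N) (h : Om U ≤ X) : N ⊓ 𝐍(X) ≤ 𝐍((U ⊓ 𝐂(X) : Subgroup G)) := by
  rw [← L.core_cent hU h]
  exact norms_piCoreOf _ (norms_inf (norms_self_of_le inf_le_left) (norms_cent inf_le_right))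

theorem cv_le (hU : SylowIn 2 U N) : N ⊓ 𝐂(VV N) ≤ 𝐍(U) := L.cent_le hU (L.Om_le_V hU)

theorem ucv_le (hU : SylowIn 2 U N) : U ⊓ 𝐂(VV N) ≤ O2 N := by
  rw [← L.core_cent hU (L.Om_le_V hU)]
  exact piCoreOf_le_of_normalIn _ (normalIn_inf_of_norm (norms_cent (le_norm_ZP N)))

end LH

/-- the module in additive notation, with the acting quotient group -/
structure Mod (N : Subgroup G) (Γ M : Type u) [Group Γ] [AddCommGroup M] [DistribMulAction Γ M] where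
  f : N →* Γ
  surj : Function.Surjective f
  ι : M → G
  ι_add : ∀ x y, ι (x + y) = ι x * ι y
  ι_inj : Function.Injective ι
  ι_mem : ∀ x, ι x ∈ VV N
  ι_surj : ∀ u ∈ VV N, ∃ x, ι x = u
  act : ∀ a ∈ N, ∀ x, ι (pel f a • x) = a * ι x * a⁻¹
  faith : ∀ g : Γ, (∀ u : M, g • u = u) → g = 1

theorem exists_mod (N : Subgroup G) : ∃ (Γ M : Type u) (_ : Group Γ) (_ : Finite Γ) (_ : AddCommGroup M)
    (_ : DistribMulAction Γ M), Nonempty (Mod N Γ M) := by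
  let ρ : N →* MulAut (VV N) := (VV N).normalizerMonoidHom.comp (inclusion (le_norm_ZP N))
  let _ : CommGroup (VV N) :=
    { (inferInstance : Group (VV N)) with mul_comm := fun a b => Subtype.ext ((Om_ea _).comm a.2 b.2) }
  let _ : DistribMulAction ρ.range (Additive (VV N)) :=
    { smul := fun g x => Additive.ofMul ((g : MulAut (VV N)) x.toMul)
      one_smul := fun _ => rfl
      mul_smul := fun _ _ _ => rfl
      smul_zero := fun g => congrArg Additive.ofMul (map_one (g : MulAut (VV N)))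
      smul_add := fun g x y => congrArg Additive.ofMul (map_mul (g : MulAut (VV N)) x.toMul y.toMul) }
  refine ⟨ρ.range, Additive (VV N), inferInstance, inferInstance, inferInstance, inferInstance,
    ⟨⟨ρ.rangeRestrict, ρ.rangeRestrict_surjective, fun x => (x.toMul : G), fun _ _ => rfl, ?_, fun x => x.toMul.2,
      fun u hu => ⟨Additive.ofMul ⟨u, hu⟩, rfl⟩, ?_, ?_⟩⟩⟩
  · intro x y h
    exact Additive.toMul.injective (Subtype.ext h)
  · intro a ha x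
    rw [pel_of_mem _ ha]; rfl
  · intro g hg
    refine Subtype.ext (MulEquiv.ext fun x => ?_)
    exact congrArg Additive.toMul (hg (Additive.ofMul x))

variable {Γ M : Type u} [Group Γ] [Finite Γ] [AddCommGroup M] [DistribMulAction Γ M]

namespace Mod

variable (m : Mod N Γ M)

/-- image in the quotient -/
noncomputable def π (a : G) : Γ := pel m.f a

theorem π_mul (ha : a ∈ N) (hb : b ∈ N) : m.π (a * b) = m.π a * m.π b := pel_mul _ ha hb

theorem π_inv (ha : a ∈ N) : m.π a⁻¹ = (m.π a)⁻¹ := pel_inv _ ha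

theorem π_conj (hg : g ∈ N) (ha : a ∈ N) : m.π (g * a * g⁻¹) = m.π g * m.π a * (m.π g)⁻¹ := pel_conj _ hg ha

theorem π_surj (γ : Γ) : ∃ a ∈ N, m.π a = γ := by
  obtain ⟨a, rfl⟩ := m.surj γ
  exact ⟨a, a.2, pel_coe _ a⟩

theorem act' (ha : a ∈ N) (x : M) : m.ι (m.π a • x) = a * m.ι x * a⁻¹ := m.act a ha x

theorem ι_zero : m.ι 0 = 1 := by
  have := m.ι_add 0 0
  rw [add_zero] at this
  exact mul_eq_left.1 this.symm

theorem ι_sq (x : M) : m.ι x * m.ι x = 1 := (m.ι_mem x).2.1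

include m in
theorem two (x : M) : x + x = 0 := m.ι_inj (by rw [m.ι_add, m.ι_sq, m.ι_zero])

theorem fix_iff (ha : a ∈ N) {x : M} : m.π a • x = x ↔ a * m.ι x = m.ι x * a := by
  rw [← conj_eq_iff_comm, ← m.act' ha, m.ι_inj.eq_iff]

theorem ker (ha : a ∈ N) : m.π a = 1 ↔ a ∈ 𝐂(VV N) := by
  constructor
  · intro h
    refine mem_cent_iff'.2 fun u hu => ?_
    obtain ⟨x, rfl⟩ := m.ι_surj u hu
    rw [← m.fix_iff ha, h, one_smul]
  · intro h
    exact m.faith _ fun x => (m.fix_iff ha).2 (mem_cent_iff'.1 h _ (m.ι_mem x))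

include m in
theorem O2_eq (L : LH N) : O2 (⊤ : Subgroup Γ) = ⊥ := by
  obtain ⟨U, hU⟩ := exists_sylowIn 2 N
  have h1 := hU.pmap m.f hU.le
  have e : pmap m.f N = ⊤ := by rw [pmap_dom, MonoidHom.range_eq_top.2 m.surj]
  rw [e] at h1
  have h2 := h1.piCoreOf_le
  have hR : pcomap m.f (O2 ⊤) ⊴ N := by
    have := (piCoreOf_normalIn {2} (⊤ : Subgroup Γ)).pcomap m.f
    rwa [pcomap_top] at this
  have h3 : pcomap m.f (O2 ⊤) ≤ 𝐍(U) := by
    intro r hr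
    obtain ⟨r1, r2⟩ := mem_pcomap.1 hr
    obtain ⟨u, hu, e⟩ := (mem_pmap_of_le hU.le).1 (h2 r2)
    have : u⁻¹ * r ∈ N ⊓ 𝐂(VV N) := by
      have k := N.mul_mem (N.inv_mem (hU.le hu)) r1
      refine ⟨k, (m.ker k).1 ?_⟩
      rw [m.π_mul (N.inv_mem (hU.le hu)) r1, m.π_inv (hU.le hu), inv_mul_eq_one]; exact e
    simpa using mul_mem (le_normalizer hu) (L.cv_le hU this)
  have h4 := (hU.inf_normal hR).piCoreOf_eq (norms_inf h3 le_normalizer)
  refine eq_bot_iff.2 fun k hk => ?_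
  obtain ⟨u, hu, rfl⟩ := (mem_pmap_of_le hU.le).1 (h2 hk)
  have h5 : u ∈ O2 N := piCoreOf_le_of_normalIn _ hR (h4 ▸ ⟨hu, mem_pcomap.2 ⟨hU.le hu, hk⟩⟩)
  exact (m.ker (hU.le hu)).2 (le_cent_Om _ h5)

include m in
theorem mh (L : LH N) : MH M (fittingOf (⊤ : Subgroup Γ)) := by
  have hn := fittingOf_normalIn (⊤ : Subgroup Γ)
  refine ⟨m.two, m.faith, fun g x hx => conj_mem_of_mem_normalizer (hn.norm (mem_top g)) hx, fun x hx => ?_,
    fun g hg => ?_⟩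
  · have h1 := hall_piCoreOf_of_nilpotent (fittingOf_nilpotent (⊤ : Subgroup Γ)) {2}
    have h2 := piCoreOf_le_of_normalIn {2} hn
    rw [show piCoreOf {2} (⊤ : Subgroup Γ) = ⊥ from m.O2_eq L, le_bot_iff] at h2
    exact PiNum.odd ((h1.eq_bot_iff.1 h2).piElt hx) (by simp)
  · have := L.sol
    have hs : Group.IsSolvable (⊤ : Subgroup Γ) := solvable_top_iff.2 (Group.isSolvable_of_surjective m.surj)
    exact cent_le_fittingOf hs ⟨mem_top g, mem_cent_iff'.2 hg⟩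

theorem step (L : LH N) (hU : SylowIn 2 U N) (hA : Aa U A) {e : G} (he : e ∈ A) (he' : e ∉ 𝐂(VV N)) :
    ∃ A₀, A ⊓ 𝐂(VV N) ≤ A₀ ∧ A₀ ≤ A ∧ e ∉ A₀ ∧ A₀.relIndex A = 2 ∧ Aa U (A₀ ⊔ (VV N ⊓ 𝐂(A₀))) ∧
      (VV N ⊓ 𝐂(A)).relIndex (VV N ⊓ 𝐂(A₀)) = 2 ∧ pmap m.f (A₀ ⊔ (VV N ⊓ 𝐂(A₀))) < pmap m.f A := by
  have hAN := hA.le.trans hU.le
  have hE : EA (pmap m.f A) := by
    intro z hz
    obtain ⟨a, ha, rfl⟩ := (mem_pmap_of_le hAN).1 hz
    rw [← pel_mul _ (hAN ha) (hAN ha), hA.ea a ha, pel_one]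
  obtain ⟨E₀, h0, hi, u, hu, hu'⟩ := (m.mh L).hyper hE (pel_mem_pmap m.f he)
    (fun k => he' ((m.ker (hAN he)).1 k))
  have e0 : pel m.f e ∉ E₀ := fun k => hu' (hu _ k)
  obtain ⟨A₀, hA₀⟩ : ∃ A₀, A₀ = A ⊓ pcomap m.f E₀ := ⟨_, rfl⟩
  have k0 : ∀ a ∈ N, a ∈ 𝐂(VV N) → a ∈ pcomap m.f E₀ := fun a ha hc =>
    mem_pcomap.2 ⟨ha, by rw [show pel m.f a = 1 from (m.ker ha).2 hc]; exact one_mem _⟩
  have k1 : A ⊓ 𝐂(VV N) ≤ A₀ := hA₀ ▸ fun a ha => ⟨ha.1, k0 a (hAN ha.1) ha.2⟩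
  have k2 : A₀ ≤ A := hA₀ ▸ inf_le_left
  have k3 : e ∉ A₀ := hA₀ ▸ fun k => e0 (mem_pcomap.1 k.2).2
  have k4 : A₀.relIndex A = 2 := by
    have h1 : A₀.relIndex A ∣ 2 := by rw [hA₀, inf_relIndex_left, relIndex_pcomap _ hAN]; exact hi
    have h2 := one_lt_relIndex (fun k : A ≤ A₀ => k3 (k he))
    have := Nat.le_of_dvd two_pos h1
    omega
  have hc : VV N ⊓ 𝐂(A₀) ≤ 𝐂(A₀) := inf_le_right
  have c2 := card_sup_mul_card_inf (Or.inl (norms_of_cents hc))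
  have l1 : A₀ ⊔ (VV N ⊓ 𝐂(A₀)) ≤ U := sup_le (k2.trans hA.le) (inf_le_left.trans (VV_le hU))
  have l2 : EA (A₀ ⊔ (VV N ⊓ 𝐂(A₀))) := (hA.ea.of_le k2).sup ((Om_ea _).of_le inf_le_left) hc
  have c3 := card_le_mm l1 l2
  have l3 : VV N ⊓ 𝐂(A) ≤ VV N ⊓ 𝐂(A₀) := inf_le_inf_left _ (cent_mono k2)
  have c4 : A₀ ⊓ (VV N ⊓ 𝐂(A₀)) = VV N ⊓ 𝐂(A) := by
    refine le_antisymm (le_inf (inf_le_right.trans inf_le_left) ((inf_le_left.trans k2).trans hA.ea.cents))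
      (le_inf (le_trans (le_inf ?_ (inf_le_left.trans (VV_cents N))) k1) l3)
    exact hA.le_of (inf_le_left.trans (VV_le hU)) ((Om_ea _).of_le inf_le_left) inf_le_right
  have c5 := card_mul_relIndex l3
  have c6 : ¬ VV N ⊓ 𝐂(A₀) ≤ VV N ⊓ 𝐂(A) := fun k => by
    have : m.ι u ∈ VV N ⊓ 𝐂(A₀) := ⟨m.ι_mem u, mem_cent_iff.2 fun a ha => by
      rw [hA₀] at ha
      exact (m.fix_iff (hAN ha.1)).1 (hu _ (mem_pcomap.1 ha.2).2)⟩
    exact hu' ((m.fix_iff (hAN he)).2 (mem_cent_iff.1 (k this).2 e he))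
  have c7 := one_lt_relIndex c6
  have c1 := card_mul_relIndex k2
  rw [k4, hA.card] at c1
  rw [c4, ← c5, mul_comm (Nat.card ↥(VV N ⊓ 𝐂(A))), ← mul_assoc] at c2
  have c8 := Nat.eq_of_mul_eq_mul_right (card_pos' _) c2
  have p1 := card_pos' A₀
  have c9 : (VV N ⊓ 𝐂(A)).relIndex (VV N ⊓ 𝐂(A₀)) = 2 := by
    rw [c8, ← c1] at c3
    have := Nat.le_of_mul_le_mul_left c3 p1
    omega
  refine ⟨A₀, k1, k2, k3, k4, ⟨l1, l2, by rw [c8, c9, c1]⟩, c9, lt_of_le_of_lt (pmap_le_of_le_pcomap ?_)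
    (lt_of_le_of_ne h0 fun k => e0 (k ▸ pel_mem_pmap m.f he))⟩
  exact sup_le (hA₀ ▸ inf_le_right) fun a ha => k0 a (VV_le_N N ha.1) (VV_cents N ha.1)

/-- elements of maximal elementary abelian subgroups inducing a transvection group -/
def DD (n : ℕ) (X : Subgroup G) (a : G) : Prop :=
  ∃ A, A ≤ X ∧ EA A ∧ Nat.card A = n ∧ a ∈ A ∧ (∃ v : M, Tv (m.π a) v) ∧
    ∀ b ∈ A, b ∈ 𝐂(VV N) ∨ b * a ∈ 𝐂(VV N)

theorem gen_aux (L : LH N) (hU : SylowIn 2 U N) (n : ℕ) : ∀ A, Aa U A → Nat.card (pmap m.f A) ≤ n →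
    A ≤ (Bm U ⊓ 𝐂(VV N)) ⊔ closure {a | m.DD (mm U) U a} := by
  induction n with
  | zero => intro A _ h; exact absurd (card_pos' (pmap m.f A)) (by omega)
  | succ n ih =>
    intro A hA hn
    have hAN := hA.le.trans hU.le
    have hAB := hA.le_JJ.trans (JJ_le_Bm U)
    by_cases h0 : A ≤ 𝐂(VV N)
    · exact (le_inf hAB h0).trans le_sup_left
    obtain ⟨e, he, he'⟩ := SetLike.not_le_iff_exists.1 h0
    obtain ⟨A₀, k1, k2, k3, k4, k5, k6, k7⟩ := m.step L hU hA he he'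
    by_cases h1 : A₀ ≤ 𝐂(VV N)
    · have k8 : ∀ b ∈ A, b ∈ A₀ ∨ b * e ∈ A₀ := fun b hb => by
        by_cases k : b ∈ A₀
        · exact Or.inl k
        · exact Or.inr (idx2 k4 hb he k k3)
      have hd : m.DD (mm U) U e := by
        refine ⟨A, hA.le, hA.ea, hA.card, he, ?_, fun b hb => (k8 b hb).imp (@h1 _) (@h1 _)⟩
        rw [inf_eq_left.2 (cents_symm h1)] at k6
        obtain ⟨x₀, hx₀⟩ : ∃ x₀ : M, m.π e • x₀ ≠ x₀ := by
          by_contra k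
          push Not at k
          exact he' ((m.ker (hAN he)).1 (m.faith _ k))
        have k9 : ∀ x : M, m.π e • x ≠ x → m.ι x ∉ VV N ⊓ 𝐂(A) := fun x hx k =>
          hx ((m.fix_iff (hAN he)).2 (mem_cent_iff.1 k.2 e he))
        refine ⟨m.π e • x₀ + x₀, fun k => hx₀ ((m.mh L).eq_of_add _ _ k), fun x => ?_, x₀, hx₀⟩
        by_cases hx : m.π e • x = x
        · exact Or.inl hx
        · have := idx2 k6 (m.ι_mem x) (m.ι_mem x₀) (k9 x hx) (k9 x₀ hx₀)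
          rw [← m.ι_add] at this
          have := (m.fix_iff (hAN he)).2 (mem_cent_iff.1 this.2 e he)
          rw [smul_add] at this
          right
          linear_combination (norm := abel) this - m.two (m.π e • x₀)
      have l1 : A₀ ≤ (Bm U ⊓ 𝐂(VV N)) ⊔ closure {a | m.DD (mm U) U a} :=
        (le_inf (k2.trans hAB) h1).trans le_sup_left
      have l2 : e ∈ (Bm U ⊓ 𝐂(VV N)) ⊔ closure {a | m.DD (mm U) U a} := mem_sup_right (subset_closure hd)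
      intro b hb
      rcases k8 b hb with k | k
      · exact l1 k
      · exact (mul_mem_cancel_right l2).1 (l1 k)
    · obtain ⟨e', he1, he1'⟩ := SetLike.not_le_iff_exists.1 h1
      obtain ⟨A₁, -, j2, j3, j4, j5, -, j7⟩ := m.step L hU hA (k2 he1) he1'
      have l1 := ih _ k5 (by have := card_lt_of_lt' k7; omega)
      have l2 := ih _ j5 (by have := card_lt_of_lt' j7; omega)
      intro b hb
      by_cases k : b ∈ A₁
      · exact l2 (mem_sup_left k)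
      · exact (mul_mem_cancel_right (l1 (mem_sup_left he1))).1
          (l2 (mem_sup_left (idx2 j4 hb (k2 he1) k j3)))

theorem gen (L : LH N) (hU : SylowIn 2 U N) :
    JJ U ≤ (Bm U ⊓ 𝐂(VV N)) ⊔ closure {a | m.DD (mm U) U a} :=
  JJ_le_of fun A hA => m.gen_aux L hU _ A hA le_rfl

end Mod

end CA.ZN
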