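/-
Minimal parabolics over the Baumann subgroup of a Sylow 2-subgroup in a solvable group of
characteristic 2 with the `Z`-condition.
-/
import Cfsg.Agent.Lib.ZN.Mod

set_option autoImplicit false
set_option linter.unusedSectionVars false

namespace CA.ZN

open Cfsg Subgroup CA

universe u

variable {G : Type u} [Group G] [Finite G] {A B N U X P P' : Subgroup G} {a b c x y z g h : G}

theorem piElt_two (ha : a * a = 1) : PiElt {2} a :=
  piElt_of_pow_eq_one (n := 2) ((piNum_prime Nat.prime_two).2 rfl) (by rw [pow_two, ha])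

variable {Γ M : Type u} [Group Γ] [Finite Γ] [AddCommGroup M] [DistribMulAction Γ M]

/-- the Fitting subgroup of the acting group -/
abbrev FF (Γ : Type u) [Group Γ] : Subgroup Γ := fittingOf ⊤

namespace Mod

variable (m : Mod N Γ M) (L : LH N) (hU : SylowIn 2 U N) {v v' v1 : M}
include L hU

theorem same (ha : a ∈ U) (hb : b ∈ U) (ht : Tv (m.π a) v) (hs : Tv (m.π b) v')
    (h : Cl (FF Γ) (m.π b) (m.π a)) : m.π b = m.π a := by
  by_contra n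
  have h3 := (m.mh L).cube hs ht h n
  have h2 : PiElt {2} (m.π b * m.π a) := by
    rw [← m.π_mul (hU.le hb) (hU.le ha)]
    exact (hU.piGrp.piElt (U.mul_mem hb ha)).pel m.f
  have h4 : PiElt {2}ᶜ (m.π b * m.π a) :=
    piElt_of_pow_eq_one ((piNum_prime Nat.prime_three).2 (by simp)) h3
  apply n
  rw [eq_inv_of_mul_eq_one_left (h2.eq_one h4), (m.mh L).inv ht]

theorem vz (ha : a ∈ U) (ht : Tv (m.π a) v) : m.ι v ∈ Om (Bm U) := by
  rw [Om_Bm]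
  refine mem_OmJ (VV_le hU (m.ι_mem v)) (m.ι_sq v) (mem_cent_iff_le_cent1.2 ((m.gen L hU).trans
    (sup_le (inf_le_right.trans (cent_le_cent1 (m.ι_mem v))) ((closure_le _).2 ?_))))
  rintro b ⟨A, h1, -, -, h2, ⟨v', hs⟩, -⟩
  refine mem_cent1_iff.2 ((m.fix_iff (hU.le (h1 h2))).1 ?_)
  by_cases h : Cl (FF Γ) (m.π b) (m.π a)
  · rw [m.same L hU ha (h1 h2) ht hs h]; exact (m.mh L).fix ht
  · exact (m.mh L).fixes hs ht h

theorem b_fix (ha : a ∈ U) (ht : Tv (m.π a) v) (hb : b ∈ Bm U) : m.π b • v = v :=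
  (m.fix_iff (hU.le (Bm_le U hb))).2 ((m.vz L hU ha ht).2.2 b hb)

theorem b_comm (ha : a ∈ U) (ht : Tv (m.π a) v) (hb : b ∈ Bm U) : m.π b * m.π a * (m.π b)⁻¹ = m.π a := by
  have H := m.mh L
  have h1 := ht.conj (m.π b)
  rw [m.b_fix L hU ha ht hb] at h1
  by_cases h : Cl (FF Γ) (m.π b * m.π a * (m.π b)⁻¹) (m.π a)
  · exact H.eq_of_fix h1 ht h (H.fix h1)
  · obtain ⟨x, hx, hne⟩ := H.exists_ne ht
    have c1 : Cl (FF Γ) (x * m.π a * x⁻¹) (m.π a) := ⟨x, hx, rfl⟩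
    exact absurd (H.eq_of_fix (ht.conj x) ht c1 (H.fixes (ht.conj x) h1 fun c => h (c.symm.trans c1))) hne

theorem b_v1 (ha : a ∈ U) (ht : Tv (m.π a) v) {t1 : Γ} (h1 : Tv t1 v1) (c1 : Cl (FF Γ) t1 (m.π a))
    (hne : t1 ≠ m.π a) (hb : b ∈ Bm U) : m.π b • v1 = v1 ∨ m.π b • v1 = v1 + v := by
  have H := m.mh L
  have e := m.b_comm L hU ha ht hb
  have c2 := H.Cl_conj c1 (m.π b)
  rw [e] at c2
  have h2 := h1.conj (m.π b)
  rcases H.three ht h1 c1 hne c2 with k | k | k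
  · rw [← e] at k
    exact absurd (by simpa using k) hne
  · rw [k] at h2; exact Or.inl (h2.uniq h1)
  · rw [k] at h2; exact Or.inr (h2.uniq (H.tv_tst ht h1 c1 hne))

/-- the Baumann argument -/
theorem z0 (hd : m.DD (mm U) U a) (ht : Tv (m.π a) v) :
    Om (Bm U) ≤ Om (JJ (O2 N)) ∧ ∀ z ∈ Om (JJ (O2 N)), a * z * a⁻¹ = z ∨ a * z * a⁻¹ = z * m.ι v := by
  obtain ⟨A, h1, h2, h3, h4, -, h5⟩ := hd
  have hA : Aa U A := ⟨h1, h2, h3⟩
  have haN := hU.le (h1 h4)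
  have hc : a ∉ 𝐂(VV N) := fun k => ht.ne_one ((m.ker haN).2 k)
  obtain ⟨A₀, k1, k2, k3, -, k5, -⟩ := m.step L hU hA h4 hc
  have k6 : A₀ ≤ 𝐂(VV N) := fun b hb => by
    by_contra n
    have := (h5 b (k2 hb)).resolve_left n
    exact k3 ((mul_mem_cancel_left hb).1 (k1 ⟨A.mul_mem (k2 hb) h4, this⟩))
  rw [inf_eq_left.2 (cents_symm k6)] at k5
  have l1 : A₀ ⊔ VV N ≤ O2 N := sup_le ((le_inf (k2.trans h1) k6).trans (L.ucv_le hU)) (Om_le _)
  have k7 := k5.restrict l1 hU.piCoreOf_le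
  have k8 := JJ_mono hU.piCoreOf_le (k5.mm_eq l1 hU.piCoreOf_le).ge
  refine ⟨?_, fun z hz => ?_⟩
  · rw [Om_Bm]; exact Om_le_Om (k5.OmJ_le.trans k7.le_JJ) k8
  · obtain ⟨b, hb, u, hu, rfl⟩ := (mem_sup_of_norm_right (norms_of_cents (cents_symm k6))).1 (k7.OmJ_le hz)
    obtain ⟨x, rfl⟩ := m.ι_surj u hu
    rw [show a * (b * m.ι x) * a⁻¹ = a * b * a⁻¹ * (a * m.ι x * a⁻¹) by group,
      conj_eq_iff_comm.2 (h2.comm h4 (k2 hb)), ← m.act' haN]
    rcases ht.or x with k | k <;> rw [k]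
    · exact Or.inl rfl
    · exact Or.inr (by rw [m.ι_add, mul_assoc])

theorem intr (hd : m.DD (mm U) U a) (ht : Tv (m.π a) v) (hy : y ∈ N)
    (c1 : Cl (FF Γ) (m.π (y * a * y⁻¹)) (m.π a)) (hne : m.π (y * a * y⁻¹) ≠ m.π a) :
    Intr (Bm U) (Bm U ⊔ zpowers (y * a * y⁻¹)) := by
  have H := m.mh L
  obtain ⟨zz, z1⟩ := m.z0 L hU hd ht
  obtain ⟨A, h1, h2, h3, h4, -, h5⟩ := hd
  have hA : Aa U A := ⟨h1, h2, h3⟩
  have haU := h1 h4
  have haN := hU.le haU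
  have haB : a ∈ Bm U := JJ_le_Bm U (hA.le_JJ h4)
  have hBN := (Bm_le U).trans hU.le
  have aa := h2 a h4
  have t1 : Tv (m.π (y * a * y⁻¹)) (m.π y • v) := by rw [m.π_conj hy haN]; exact ht.conj _
  have z2 : ∀ z ∈ Om (JJ (O2 N)), (y * a * y⁻¹) * z * (y * a * y⁻¹)⁻¹ = z ∨
      (y * a * y⁻¹) * z * (y * a * y⁻¹)⁻¹ = z * m.ι (m.π y • v) := by
    intro z hz
    have := z1 _ (conj_inv_mem_of_mem_normalizer (norms_Om (norms_JJ (piCoreOf_norm _ N)) hy) hz)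
    rw [show (y * a * y⁻¹) * z * (y * a * y⁻¹)⁻¹ = y * (a * (y⁻¹ * z * y) * a⁻¹) * y⁻¹ by group, m.act' hy]
    rcases this with k | k <;> rw [k]
    · left; group
    · right; group
  have a1N : y * a * y⁻¹ ∈ N := N.mul_mem (N.mul_mem hy haN) (N.inv_mem hy)
  have a1a : (y * a * y⁻¹) * (y * a * y⁻¹) = 1 := by
    rw [show (y * a * y⁻¹) * (y * a * y⁻¹) = y * (a * a) * y⁻¹ by group, aa]; group
  generalize y * a * y⁻¹ = a1 at *
  generalize m.π y • v = v1 at *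
  have vz := m.vz L hU haU ht
  have mv : m.π a • v1 = v1 + v := H.moves ht t1 c1.symm hne.symm
  have mv' : m.π a1 • v = v + v1 := H.moves t1 ht c1 hne
  have e1 : a * m.ι v1 * a⁻¹ = m.ι v1 * m.ι v := by rw [← m.act' haN, mv, m.ι_add]
  have v0 : m.ι v ≠ 1 := fun k => ht.ne (m.ι_inj (k.trans m.ι_zero.symm))
  have nv1 : m.ι v1 ∉ Om (Bm U) := fun k => by
    rw [conj_eq_iff_comm.2 (k.2.2 a haB)] at e1
    exact v0 (by simpa using e1)
  have bv : ∀ b ∈ Bm U, b * m.ι v1 * b⁻¹ = m.ι v1 ∨ b * m.ι v1 * b⁻¹ = m.ι v1 * m.ι v := fun b hb => by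
    rw [← m.act' (hBN hb), ← m.ι_add]
    exact (m.b_v1 L hU haU ht t1 c1 hne hb).imp (fun k => by rw [k]) (fun k => by rw [k])
  have a1v : a1 * m.ι v1 * a1⁻¹ = m.ι v1 := by rw [← m.act' a1N, H.fix t1]
  obtain ⟨Y, hY⟩ : ∃ Y, Y = Om (Bm U) ⊔ zpowers (m.ι v1) := ⟨_, rfl⟩
  have y1 : Om (Bm U) ≤ Y := hY ▸ le_sup_left
  have y2 : m.ι v1 ∈ Y := hY ▸ mem_sup_right (mem_zpowers _)
  have y3 : ∀ g, (∀ z ∈ Om (Bm U), g * z * g⁻¹ ∈ Y) → g * m.ι v1 * g⁻¹ ∈ Y → g ∈ 𝐍(Y) := fun g k1 k2 =>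
    mem_normalizer_of_cj_le (by
      conv_lhs => rw [hY, cj_sup, cj_zpowers]
      exact sup_le (cj_le_iff'.2 k1) (zpowers_le.2 k2))
  have y4 : ∀ g, g ∈ 𝐂(Y) ↔ g ∈ 𝐂(Om (Bm U)) ∧ g * m.ι v1 * g⁻¹ = m.ι v1 := fun g => by
    rw [hY, cent_sup, cent_zpowers, mem_inf, mem_cent1_iff, conj_eq_iff_comm]
  have y5 : Om U ≤ Y := (Om_le_OmB U).trans y1
  have pn : Bm U ⊔ zpowers a1 ≤ N ⊓ 𝐍(Y) := by
    refine sup_le (le_inf hBN fun b hb => y3 b (fun z hz => ?_) ?_) (zpowers_le.2 ⟨a1N, y3 a1 (fun z hz => ?_) ?_⟩)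
    · rw [conj_eq_iff_comm.2 (hz.2.2 b hb)]; exact y1 hz
    · rcases bv b hb with k | k <;> rw [k]
      · exact y2
      · exact mul_mem y2 (y1 vz)
    · rcases z2 z (zz hz) with k | k <;> rw [k]
      · exact y1 hz
      · exact mul_mem (y1 hz) y2
    · rw [a1v]; exact y2
  obtain ⟨Q, hQ⟩ : ∃ Q, Q = U ⊓ 𝐂(Y) := ⟨_, rfl⟩
  have pq : Bm U ⊔ zpowers a1 ≤ 𝐍(Q) := hQ ▸ pn.trans (L.norm_cent hU y5)
  have qb : Q ≤ Bm U := by rw [Bm_eq U, hQ]; exact inf_le_inf_left _ (cent_mono y1)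
  have qm : ∀ b ∈ Bm U, b * m.ι v1 * b⁻¹ = m.ι v1 → b ∈ Q := fun b hb k =>
    hQ ▸ ⟨Bm_le U hb, (y4 b).2 ⟨le_cent_Om _ hb, k⟩⟩
  have aq : a ∉ Q := fun k => by
    rw [hQ] at k
    rw [((y4 a).1 k.2).2] at e1
    exact v0 (by simpa using e1)
  have i2 : Q.relIndex (Bm U) = 2 := idx2_of haB aq fun b hb => by
    rcases bv b hb with k | k
    · exact Or.inl (qm b hb k)
    · refine Or.inr (qm _ (mul_mem hb haB) ?_)
      rw [show b * a * m.ι v1 * (b * a)⁻¹ = b * (a * m.ι v1 * a⁻¹) * b⁻¹ by group, e1,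
        show b * (m.ι v1 * m.ι v) * b⁻¹ = b * m.ι v1 * b⁻¹ * (b * m.ι v * b⁻¹) by group, k,
        conj_eq_iff_comm.2 (vz.2.2 b hb), mul_assoc, m.ι_sq, mul_one]
  have hP : a * a1 ∈ Bm U ⊔ zpowers a1 := mul_mem (mem_sup_left haB) (mem_sup_right (mem_zpowers _))
  have hN : a * a1 ∈ N := N.mul_mem haN a1N
  have f3 : (m.π (a * a1)) ^ 3 = 1 := by rw [m.π_mul haN a1N]; exact H.cube ht t1 c1.symm hne.symm
  have hv1 : m.π (a * a1) • v1 = v1 + v := by rw [m.π_mul haN a1N, mul_smul, H.fix t1, mv]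
  have hv : m.π (a * a1) • v = v1 := by
    rw [m.π_mul haN a1N, mul_smul, mv', smul_add, mv, H.fix ht]
    linear_combination (norm := abel) m.two v
  have hz : ∀ z ∈ Om (Bm U), (a * a1) * z * (a * a1)⁻¹ = z ∨ (a * a1) * z * (a * a1)⁻¹ = z * m.ι (v1 + v) := by
    intro z hz
    have e := conj_eq_iff_comm.2 (hz.2.2 a haB)
    rw [show (a * a1) * z * (a * a1)⁻¹ = a * (a1 * z * a1⁻¹) * a⁻¹ by group]
    rcases z2 z (zz hz) with k | k <;> rw [k]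
    · exact Or.inl e
    · right; rw [show a * (z * m.ι v1) * a⁻¹ = a * z * a⁻¹ * (a * m.ι v1 * a⁻¹) by group, e, e1, m.ι_add]
  have inv : a * (a * a1) * a⁻¹ = (a * a1)⁻¹ := by
    rw [← mul_assoc, aa, one_mul, mul_inv_rev, inv_eq_of_mul_eq_one_right a1a]
  have a1e : a1 = a⁻¹ * (a * a1) := by group
  generalize a * a1 = h at *
  have h3 : h ^ 3 ∈ N ⊓ 𝐂(Y) := by
    have h3N := N.pow_mem hN 3
    refine ⟨h3N, (y4 _).2 ⟨mem_cent_iff'.2 fun z hz' => conj_eq_iff_comm.1 ?_, ?_⟩⟩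
    · rw [show h ^ 3 * z * (h ^ 3)⁻¹ = h * (h * (h * z * h⁻¹) * h⁻¹) * h⁻¹ by rw [pow_three]; group]
      have d : ∀ x : M, h * (z * m.ι x) * h⁻¹ = h * z * h⁻¹ * m.ι (m.π h • x) := fun x => by
        rw [m.act' hN]; group
      rcases hz z hz' with k | k
      · rw [k, k, k]
      · rw [k, d, k, mul_assoc z, ← m.ι_add, d, k, mul_assoc, ← m.ι_add]
        simp only [smul_add, hv1, hv]
        rw [show v1 + v + (v1 + v + v1 + (v1 + v + v1 + (v1 + v))) = (0 : M) by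
          linear_combination (norm := abel) (3 : ℕ) • m.two v1 + (2 : ℕ) • m.two v, m.ι_zero, mul_one]
    · rw [← m.act' h3N, show m.π (h ^ 3) = m.π h ^ 3 from pel_pow _ hN 3, f3, one_smul]
  have h6 : (h ^ 3) ^ 2 ∈ U := by
    have k := U.mul_mem (conj_mem_of_mem_normalizer (L.cent_le hU y5 h3) haU) (U.inv_mem haU)
    convert k using 1
    calc (h ^ 3) ^ 2 = h ^ 3 * ((h⁻¹) ^ 3)⁻¹ := by group
      _ = h ^ 3 * ((a * h * a⁻¹) ^ 3)⁻¹ := by rw [inv]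
      _ = _ := by rw [conj_pow]; group
  have h3q : h ^ 3 ∈ Q := by
    obtain ⟨k, hk⟩ := (hU.isPGroup Nat.prime_two) ⟨_, h6⟩
    have hk : ((h ^ 3) ^ 2) ^ 2 ^ k = 1 := congrArg Subtype.val hk
    rw [← pow_mul, ← pow_succ'] at hk
    exact hQ ▸ ⟨hU.mem_of_mem_norm (L.cent_le hU y5 h3) h3.1
      (piElt_of_pow_eq_one (piNum_singleton_pow Nat.prime_two _) hk), h3.2⟩
  have hq : h ∉ Q := fun k => by
    rw [hQ] at k
    have := ((y4 h).1 k.2).2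
    rw [← m.act' hN, hv1] at this
    exact ht.ne (by simpa using m.ι_inj this)
  have : Fact (Nat.Prime 3) := ⟨Nat.prime_three⟩
  have cR := card_sup_zpowers (p := 3) (pq hP) hq h3q
  have cB := card_mul_relIndex qb
  rw [i2] at cB
  have p0 := card_pos' Q
  have aR : a ∉ Q ⊔ zpowers h := fun k => by
    have : Bm U ≤ Q ⊔ zpowers h := fun b hb => by
      by_cases j : b ∈ Q
      · exact mem_sup_left j
      · exact (mul_mem_cancel_right k).1 (mem_sup_left (idx2 i2 hb haB j aq))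
    have := card_dvd_of_le' this
    rw [cR, ← cB] at this
    exact absurd (Nat.dvd_of_mul_dvd_mul_left p0 this) (by decide)
  have aN : a ∈ 𝐍((Q ⊔ zpowers h : Subgroup G)) := by
    rw [mem_normalizer_iff_cj, cj_sup, cj_zpowers, inv, zpowers_inv,
      cj_eq_of_mem_normalizer (pq (mem_sup_left haB))]
  have cP := card_sup_zpowers (p := 2) aN aR (by rw [pow_two, aa]; exact one_mem _)
  have eP : Q ⊔ zpowers h ⊔ zpowers a = Bm U ⊔ zpowers a1 := by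
    apply le_antisymm
    · exact sup_le (sup_le (qb.trans le_sup_left) (zpowers_le.2 hP)) (zpowers_le.2 (mem_sup_left haB))
    · have k : a ∈ Q ⊔ zpowers h ⊔ zpowers a := mem_sup_right (mem_zpowers a)
      refine sup_le (fun b hb => ?_) (zpowers_le.2 (a1e ▸ mul_mem (inv_mem k)
        (mem_sup_left (mem_sup_right (mem_zpowers h)))))
      by_cases j : b ∈ Q
      · exact mem_sup_left (mem_sup_left j)
      · exact (mul_mem_cancel_right k).1 (mem_sup_left (mem_sup_left (idx2 i2 hb haB j aq)))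
  have i3 : (Bm U).relIndex (Bm U ⊔ zpowers a1) = 3 :=
    relIndex_eq_of_card_eq_mul le_sup_left (by rw [← eP, cP, cR, ← cB]; ring)
  have p2 : PiGrp {2} (Bm U) := hU.piGrp.of_le (Bm_le U)
  have syl : SylowIn 2 (Bm U) (Bm U ⊔ zpowers a1) :=
    sylowIn_mk Nat.prime_two le_sup_left (p2.isPGroup Nat.prime_two) (by rw [i3]; decide)
  have a1z : a1 * m.ι v * a1⁻¹ ∉ Om (Bm U) := by
    rw [← m.act' a1N, mv', m.ι_add]
    exact fun k => nv1 ((mul_mem_cancel_left vz).1 k)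
  have eQ : O2 (Bm U ⊔ zpowers a1) = Q := by
    refine le_antisymm (fun q hq' => ?_) (le_piCoreOf ⟨qb.trans le_sup_left, pq⟩ (p2.of_le qb))
    by_contra n
    have k1 := syl.piCoreOf_le hq'
    have k2 : Q ≤ O2 (Bm U ⊔ zpowers a1) := le_piCoreOf ⟨qb.trans le_sup_left, pq⟩ (p2.of_le qb)
    have k3 : O2 (Bm U ⊔ zpowers a1) = Bm U := le_antisymm syl.piCoreOf_le fun b hb => by
      by_cases j : b ∈ Q
      · exact k2 j
      · exact (mul_mem_cancel_right hq').1 (k2 (idx2 i2 hb k1 j n))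
    have k4 := le_norm_ZP (Bm U ⊔ zpowers a1) (mem_sup_right (mem_zpowers a1))
    rw [k3] at k4
    exact a1z (conj_mem_of_mem_normalizer k4 vz)
  refine ⟨p2, le_sup_left, i3, eQ ▸ i2, fun k => a1z ?_, eQ ▸ fun z hz => qm z hz.1 (conj_eq_iff_comm.2 ?_),
    A, Aa_Bm.2 hA, eQ ▸ fun k => aq (k h4)⟩
  · rw [conj_eq_of_mem_cent (k (mem_sup_right (mem_zpowers a1))) vz]; exact vz
  · exact ((m.ι_mem v1).2.2 z (JJ_le _ (zz hz).1))

theorem cp_le (I : Intr (Bm U) P) (hP : P ≤ N) (hc : c ∈ P) (h1 : m.π c = 1) : c ∈ Bm U := by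
  by_contra n
  exact I.not_norm (I.gen hc n le_normalizer
    (norms_Bm (L.cv_le hU) ⟨hP hc, (m.ker (hP hc)).1 h1⟩))

theorem link (I : Intr (Bm U) P) (hP : P ≤ N) : ∃ (a : G) (v : M), m.DD (mm U) U a ∧ Tv (m.π a) v ∧
    a ∈ Bm U ∧ a ∉ O2 P ∧ a * a = 1 ∧ (∀ r w, Dat (Bm U) P r w → r = m.ι v) ∧ ∀ h ∈ P, h ∉ Bm U →
      Cl (FF Γ) (m.π (h * a * h⁻¹)) (m.π a) ∧ m.π (h * a * h⁻¹) ≠ m.π a := by
  have H := m.mh L
  obtain ⟨a, hd, ha⟩ : ∃ a, m.DD (mm U) U a ∧ a ∉ O2 P := by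
    by_contra n
    push Not at n
    obtain ⟨A, hA, hA'⟩ := I.off
    refine hA' (((Aa_Bm.1 hA).le_JJ.trans (m.gen L hU)).trans (sup_le ?_ ((closure_le _).2 n)))
    exact fun x hx => inf_piCoreOf_le _ (hP.trans le_normalizer)
      ⟨I.le hx.1, L.ucv_le hU ⟨Bm_le U hx.1, hx.2⟩⟩
  obtain ⟨A, h1, h2, h3, h4, ⟨v, ht⟩, h5⟩ := id hd
  have haB : a ∈ Bm U := JJ_le_Bm U (Aa.le_JJ ⟨h1, h2, h3⟩ h4)
  have haN := hU.le (h1 h4)
  have haP := I.le haB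
  have key : ∀ h ∈ P, h ∉ Bm U →
      Cl (FF Γ) (m.π (h * a * h⁻¹)) (m.π a) ∧ m.π (h * a * h⁻¹) ≠ m.π a := by
    intro h hh hh'
    have n := I.conj_not_mem hh hh' haB ha
    have hs : Tv (m.π (h * a * h⁻¹)) (m.π h • v) := by rw [m.π_conj (hP hh) haN]; exact ht.conj _
    have bP : h * a * h⁻¹ ∈ P := P.mul_mem (P.mul_mem hh haP) (P.inv_mem hh)
    generalize h * a * h⁻¹ = b at n hs bP
    refine ⟨?_, fun e => n ?_⟩
    · by_contra k
      have k1 := H.comm_of_not_Cl hs ht k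
      have k2 := m.cp_le L hU I hP (P.mul_mem (P.mul_mem (P.mul_mem bP haP) (P.inv_mem bP)) (P.inv_mem haP))
        (by rw [show m.π (b * a * b⁻¹ * a⁻¹) = _ from pel_comm _ (hP bP) haN]
            show m.π b * m.π a * (m.π b)⁻¹ * (m.π a)⁻¹ = 1
            rw [k1]; group)
      exact ha (I.inter bP n haB ((mul_mem_cancel_right (inv_mem haB)).1 k2))
    · exact (mul_mem_cancel_right haB).1 (m.cp_le L hU I hP (P.mul_mem bP haP)
        (by rw [m.π_mul (hP bP) haN, e, H.sq ht]))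
  refine ⟨a, v, hd, ht, haB, ha, h2 a h4, fun r w D => ?_, key⟩
  obtain ⟨h, hh, hh', -⟩ := I.exists_h
  obtain ⟨c1, hne⟩ := key h hh hh'
  have hs : Tv (m.π (h * a * h⁻¹)) (m.π h • v) := by rw [m.π_conj (hP hh) haN]; exact ht.conj _
  have mv := H.moves ht hs c1.symm hne.symm
  have e1 : a * m.ι (m.π h • v) * a⁻¹ = m.ι (m.π h • v) * m.ι v := by rw [← m.act' haN, mv, m.ι_add]
  have m1 : m.ι (m.π h • v) ∈ Om (O2 P) := by
    rw [m.act' (hP hh)]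
    exact conj_mem_of_mem_normalizer (le_norm_ZP P hh) (I.z_le (m.vz L hU (h1 h4) ht))
  have m2 : m.ι (m.π h • v) ∉ Om (Bm U) := fun k => by
    rw [conj_eq_iff_comm.2 (k.2.2 a haB)] at e1
    exact ht.ne (m.ι_inj ((mul_eq_left.1 e1.symm).trans m.ι_zero.symm))
  rw [D.act' m1 m2 haB ha] at e1
  exact mul_left_cancel e1

include m in
theorem a2 (I : Intr (Bm U) P) (hP : P ≤ N) (I' : Intr (Bm U) P') (hP' : P' ≤ N) (hne : P ≠ P') :
    ∃ x ∈ P', x ∉ Bm U ∧ x ∈ 𝐂(WW P) := by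
  have H := m.mh L
  have hBN := (Bm_le U).trans hU.le
  obtain ⟨a, v, -, ht, haB, ha, aa, hr, key⟩ := m.link L hU I hP
  obtain ⟨a', v', hd', ht', haB', ha', aa', hr', key'⟩ := m.link L hU I' hP'
  obtain ⟨h, hh, hh1, -⟩ := I.exists_h
  obtain ⟨h', hh', hh1', -⟩ := I'.exists_h
  obtain ⟨r, w, D⟩ := I.exists_dat
  obtain ⟨r', w', D'⟩ := I'.exists_dat
  have er := hr r w D
  have er' := hr' r' w' D'
  have tv : ∀ {a h : G} {v : M}, a ∈ N → h ∈ N → Tv (m.π a) v → Tv (m.π (h * a * h⁻¹)) (m.π h • v) :=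
    fun ha hh ht => by rw [m.π_conj hh ha]; exact ht.conj _
  obtain ⟨c1', hne'⟩ := key' h' hh' hh1'
  have s' := tv (hBN haB') (hP' hh') ht'
  have bP' : h' * a' * h'⁻¹ ∈ P' := P'.mul_mem (P'.mul_mem hh' (I'.le haB')) (P'.inv_mem hh')
  have bB' := I'.conj_not_mem hh' hh1' haB' ha'
  by_cases hc : Cl (FF Γ) (m.π a') (m.π a)
  · exfalso
    have e := m.same L hU (Bm_le U haB) (Bm_le U haB') ht ht' hc
    rw [e] at c1' hne' ht'
    obtain rfl := ht'.uniq ht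
    obtain ⟨h, hh, hh1, es⟩ : ∃ h ∈ P, h ∉ Bm U ∧ m.π (h' * a' * h'⁻¹) = m.π (h * a * h⁻¹) := by
      obtain ⟨c1, hne⟩ := key h hh hh1
      rcases H.three ht (tv (hBN haB) (hP hh) ht) c1 hne c1' with k | k | k
      · exact absurd k hne'
      · exact ⟨h, hh, hh1, k⟩
      · refine ⟨a * h, P.mul_mem (I.le haB) hh, fun j => hh1 ((mul_mem_cancel_left haB).1 j), ?_⟩
        rw [k, show a * h * a * (a * h)⁻¹ = a * (h * a * h⁻¹) * a⁻¹ by group, m.π_conj (hBN haB)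
          (N.mul_mem (N.mul_mem (hP hh) (hBN haB)) (N.inv_mem (hP hh))), H.inv ht]
    have s := tv (hBN haB) (hP hh) ht
    have hU' := hU.cj_of_mem (hP hh)
    have bU : h * a * h⁻¹ ∈ cj h U := mem_cj'.2 ⟨a, Bm_le U haB, rfl⟩
    have bN := hU'.le bU
    have cN := N.mul_mem bN (hP' bP')
    have b'U : h' * a' * h'⁻¹ ∈ cj h U := by
      refine hU'.mem_of_mem_norm ((mul_mem_cancel_left (le_normalizer bU)).1
        (L.cv_le hU' ⟨cN, (m.ker cN).1 ?_⟩)) (hP' bP') (piElt_conj.2 (piElt_two aa'))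
      rw [m.π_mul bN (hP' bP'), es, H.sq s]
    have ev : h' * r' * h'⁻¹ = h * r * h⁻¹ := by
      rw [es] at s'
      rw [er, er', ← m.act' (hP hh), ← m.act' (hP' hh'), s'.uniq s]
    have qq : O2 P' ≤ cj h U := fun q hq => by
      have k1 : h' * r' * h'⁻¹ ∈ Om (O2 P') := conj_mem_of_mem_normalizer (le_norm_ZP P' hh') (I'.z_le D'.rz)
      have k2 : q ∈ O2 P := D.mem_q (conj_mem_of_mem_normalizer (le_norm_ZP P hh) (I.z_le D.rz))
        (D.out_not hh hh1) (I'.q_le hq) (ev ▸ k1.2.2 q hq)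
      exact mem_cj.2 (Bm_le U (I.q_le (conj_inv_mem_of_mem_normalizer (piCoreOf_norm _ P hh) k2)))
    obtain ⟨A, h1, h2, h3, h4, -, -⟩ := hd'
    have hAB : A ≤ Bm U := (Aa.le_JJ ⟨h1, h2, h3⟩).trans (JJ_le_Bm U)
    have hA' : Aa (cj h U) (cj h' A) := by
      refine ⟨cj_le_iff'.2 fun x hx => ?_, h2.cj _, by rw [card_cj, mm_cj, h3]⟩
      have k : ∀ q ∈ O2 P', h' * q * h'⁻¹ ∈ cj h U := fun q hq =>
        qq (conj_mem_of_mem_normalizer (piCoreOf_norm _ P' hh') hq)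
      by_cases j : x ∈ O2 P'
      · exact k x j
      · have := mul_mem (k _ (I'.mul_q (hAB hx) haB' j ha')) (inv_mem b'U)
        convert this using 1; group
    have k := JJ_le_Bm _ (hA'.le_JJ (mem_cj'.2 ⟨a', h4, rfl⟩))
    rw [← cj_Bm] at k
    exact hne (I'.eq_of_le I (I'.gen bP' bB' I.le (cj_le_of_le I.le hh k))).symm
  · obtain ⟨c1, -⟩ := key h hh hh1
    have s := tv (hBN haB) (hP hh) ht
    have k1 := (m.fix_iff (hP' bP')).1 (H.fixes s' ht fun c => hc (c1'.symm.trans c))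
    have k2 := (m.fix_iff (hP' bP')).1 (H.fixes s' s fun c => hc ((c1'.symm.trans c).trans c1))
    rw [m.act' (hP hh), ← er] at k2
    rw [← er] at k1
    refine ⟨_, bP', bB', D.cent_W I k1 ?_⟩
    rcases D.out h hh hh1 with k | k <;> rw [k] at k2
    · exact k2
    · generalize h' * a' * h'⁻¹ = x at k1 k2
      rw [mul_assoc w, ← k1, ← mul_assoc, ← mul_assoc] at k2
      exact mul_right_cancel k2

include m in
theorem a1 : N ≤ sSup {P | Intr (Bm U) P ∧ P ≤ N} ⊔ (N ⊓ 𝐍(Bm U)) := by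
  have H := m.mh L
  obtain ⟨K, hK⟩ : ∃ K, K = (N ⊓ 𝐂(VV N)) ⊔ closure {a | m.DD (mm U) N a} := ⟨_, rfl⟩
  have kc : N ⊓ 𝐂(VV N) ≤ K := hK ▸ le_sup_left
  have kd : ∀ a, m.DD (mm U) N a → a ∈ K := fun a ha => hK ▸ mem_sup_right (subset_closure ha)
  have hKN : K ⊴ N := by
    rw [hK]
    refine ⟨sup_le inf_le_left ((closure_le _).2 ?_), norms_sup
      (normalIn_inf_of_norm (norms_cent (le_norm_ZP N))).norm (norms_closure ?_)⟩
    · rintro a ⟨A, h1, -, -, h4, -⟩; exact h1 h4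
    · rintro g hg a ⟨A, h1, h2, h3, h4, ⟨v, ht⟩, h5⟩
      refine ⟨cj g A, cj_le_of_le h1 hg, h2.cj g, by rw [card_cj, h3], mem_cj'.2 ⟨a, h4, rfl⟩,
        ⟨_, by rw [m.π_conj hg (h1 h4)]; exact ht.conj _⟩, fun b hb => ?_⟩
      obtain ⟨b, hb', rfl⟩ := mem_cj'.1 hb
      have hn := norms_cent (le_norm_ZP N) hg
      rw [show g * b * g⁻¹ * (g * a * g⁻¹) = g * (b * a) * g⁻¹ by group]
      exact (h5 b hb').imp (conj_mem_of_mem_normalizer hn) (conj_mem_of_mem_normalizer hn)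
  have jk : JJ U ≤ U ⊓ K := by
    refine le_inf (JJ_le U) ((m.gen L hU).trans (sup_le ((inf_le_inf_right _ ((Bm_le U).trans hU.le)).trans kc)
      ((closure_le _).2 ?_)))
    rintro a ⟨A, h1, h⟩
    exact kd a ⟨A, h1.trans hU.le, h⟩
  have hS := hU.inf_normal hKN
  have cy : N ⊓ 𝐂(VV N) ≤ sSup {P | Intr (Bm U) P ∧ P ≤ N} ⊔ (N ⊓ 𝐍(Bm U)) :=
    (le_inf inf_le_left (norms_Bm (L.cv_le hU))).trans le_sup_right
  have kcl : ∀ l ∈ K, ∀ (s : Γ) (v : M), Tv s v → Cl (FF Γ) (m.π l * s * (m.π l)⁻¹) s := by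
    let T : Subgroup G :=
      { carrier := {l | l ∈ N ∧ ∀ (s : Γ) (v : M), Tv s v → Cl (FF Γ) (m.π l * s * (m.π l)⁻¹) s}
        one_mem' := ⟨N.one_mem, fun s v _ => by
          rw [show m.π 1 = 1 from pel_one _]; simpa using Cl.refl s⟩
        mul_mem' := by
          rintro a b ⟨ha, ha'⟩ ⟨hb, hb'⟩
          refine ⟨N.mul_mem ha hb, fun s v hs => Cl.trans ?_ (hb' s v hs)⟩
          have := ha' _ _ (hs.conj (m.π b))
          rw [m.π_mul ha hb]; convert this using 1; group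
        inv_mem' := by
          rintro a ⟨ha, ha'⟩
          refine ⟨N.inv_mem ha, fun s v hs => Cl.symm ?_⟩
          have := ha' _ _ (hs.conj (m.π a)⁻¹)
          rw [m.π_inv ha]; convert this using 1; group }
    have : K ≤ T := by
      rw [hK]
      refine sup_le (fun c hc => ⟨hc.1, fun s v _ => ?_⟩) ((closure_le _).2 ?_)
      · rw [(m.ker hc.1).2 hc.2]; simpa using Cl.refl s
      · rintro a ⟨A, h1, -, -, h4, ⟨v, ht⟩, -⟩
        exact ⟨h1 h4, fun s v' hs => H.Cl_conj_tv ht hs⟩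
    exact fun l hl => (this hl).2
  refine (frattini_arg hKN hS).ge.trans (sup_le ?_ (le_trans (le_inf inf_le_left ?_) le_sup_right))
  · rw [hK]
    refine sup_le cy ((closure_le _).2 ?_)
    rintro a ⟨A, h1, h2, h3, h4, ⟨v, ht⟩, h5⟩
    have aK : a ∈ K := kd a ⟨A, h1, h2, h3, h4, ⟨v, ht⟩, h5⟩
    have hAK : A ≤ K := fun b hb => by
      rcases h5 b hb with k | k
      · exact kc ⟨h1 hb, k⟩
      · exact (mul_mem_cancel_right aK).1 (kc ⟨h1 (A.mul_mem hb h4), k⟩)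
    obtain ⟨l, hl, hle⟩ := SylowIn.exists_cj_le hS h2.piGrp hAK
    have lN := hKN.le hl
    have aN := h1 h4
    have t0 : Tv (m.π (l * a * l⁻¹)) (m.π l • v) := by rw [m.π_conj lN aN]; exact ht.conj _
    have c0 : Cl (FF Γ) (m.π (l * a * l⁻¹)) (m.π a) := by rw [m.π_conj lN aN]; exact kcl l hl _ _ ht
    have hd : m.DD (mm U) U (l * a * l⁻¹) := by
      refine ⟨cj l A, hle.trans inf_le_left, h2.cj l, by rw [card_cj, h3], mem_cj'.2 ⟨a, h4, rfl⟩,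
        ⟨_, t0⟩, fun b hb => ?_⟩
      obtain ⟨b, hb', rfl⟩ := mem_cj'.1 hb
      have hn := norms_cent (le_norm_ZP N) lN
      rw [show l * b * l⁻¹ * (l * a * l⁻¹) = l * (b * a) * l⁻¹ by group]
      exact (h5 b hb').imp (conj_mem_of_mem_normalizer hn) (conj_mem_of_mem_normalizer hn)
    have a0B : l * a * l⁻¹ ∈ Bm U := JJ_le_Bm U (Aa.le_JJ ⟨hle.trans inf_le_left, h2.cj l,
      by rw [card_cj, h3]⟩ (mem_cj'.2 ⟨a, h4, rfl⟩))
    generalize l * a * l⁻¹ = a0 at t0 c0 hd a0B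
    have a0N := hU.le (Bm_le U a0B)
    obtain ⟨x, hx, hne⟩ := H.exists_ne t0
    obtain ⟨y, hy, rfl⟩ := m.π_surj x
    have c1 : Cl (FF Γ) (m.π (y * a0 * y⁻¹)) (m.π a0) := ⟨_, hx, m.π_conj hy a0N⟩
    have t1 := t0.conj (m.π y)
    rw [← m.π_conj hy a0N] at hne t1
    have I := m.intr L hU hd t0 hy c1 hne
    have a1N : y * a0 * y⁻¹ ∈ N := N.mul_mem (N.mul_mem hy a0N) (N.inv_mem hy)
    generalize y * a0 * y⁻¹ = a1 at c1 hne t1 I a1N
    have hP : Bm U ⊔ zpowers a1 ≤ N := sup_le ((Bm_le U).trans hU.le) (zpowers_le.2 a1N)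
    obtain ⟨p, hp, e⟩ : ∃ p ∈ Bm U ⊔ zpowers a1, m.π a = m.π p := by
      have m0 : a0 ∈ Bm U ⊔ zpowers a1 := mem_sup_left a0B
      have m1 : a1 ∈ Bm U ⊔ zpowers a1 := mem_sup_right (mem_zpowers a1)
      rcases H.three t0 t1 c1 hne c0.symm with k | k | k
      · exact ⟨a0, m0, k⟩
      · exact ⟨a1, m1, k⟩
      · exact ⟨_, mul_mem (mul_mem m0 m1) m0, by rw [k, m.π_mul (N.mul_mem a0N a1N) a0N, m.π_mul a0N a1N]⟩
    have k1 := N.mul_mem (N.inv_mem (hP hp)) aN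
    have k2 := cy ⟨k1, (m.ker k1).1 (by rw [m.π_mul (N.inv_mem (hP hp)) aN, m.π_inv (hP hp), e, inv_mul_cancel])⟩
    exact (mul_mem_cancel_left (inv_mem (mem_sup_left (le_sSup (s := {P | Intr (Bm U) P ∧ P ≤ N})
      ⟨I, hP⟩ hp)))).1 k2
  · have := L.norm_cent hU (Om_le_OmJ U)
    refine le_trans (inf_le_inf_left N ?_) this
    rw [← JJ_eq_of_le jk inf_le_left]
    exact norms_Om (norms_JJ le_rfl)

end Mod

theorem LH.a1 (L : LH N) (hU : SylowIn 2 U N) :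
    N ≤ sSup {P | Intr (Bm U) P ∧ P ≤ N} ⊔ (N ⊓ 𝐍(Bm U)) := by
  obtain ⟨Γ, M, _, _, _, _, ⟨m⟩⟩ := exists_mod N
  exact m.a1 L hU

theorem LH.a2 (L : LH N) (hU : SylowIn 2 U N) (I : Intr (Bm U) P) (hP : P ≤ N) (I' : Intr (Bm U) P')
    (hP' : P' ≤ N) (hne : P ≠ P') : ∃ x ∈ P', x ∉ Bm U ∧ x ∈ 𝐂(WW P) := by
  obtain ⟨Γ, M, _, _, _, _, ⟨m⟩⟩ := exists_mod N
  exact m.a2 L hU I hP I' hP' hne

end CA.ZN
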