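/-
Choice of the Baumann subgroup `B` and of two minimal parabolics over it without a common 2-local subgroup.
-/
import Cfsg.Agent.Lib.ZN.Loc
import Cfsg.Prelude.Def_CaseTheorems
import Cfsg.Prelude.Def_Involutions

set_option autoImplicit false
set_option linter.unusedSectionVars false

namespace CA.ZN

open Cfsg Subgroup CA

universe u

variable {G : Type u} [Group G] [Finite G] {A B M N R S T U X P P' : Subgroup G} {a b c x y z g h : G}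

/-- global hypotheses -/
structure GH (G : Type u) [Group G] : Prop where
  even : Even (Nat.card G)
  o2 : O2 (⊤ : Subgroup G) = ⊥
  lh : ∀ N : Subgroup G, IsTwoLocal N → LH N

theorem loc_of (hR : PiGrp {2} R) (h : R ≠ ⊥) : IsTwoLocal 𝐍(R) := ⟨R, hR.isPGroup Nat.prime_two, h, rfl⟩

theorem gh_of (hL : IsCharacteristicTwoType G) (hO : pCore 2 G = ⊥)
    (hN : ∀ N : Subgroup G, IsTwoLocal N → Group.IsSolvable N)
    (hZ : ∀ S : Sylow 2 G,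
      centralizer {z : G | z ∈ (S : Subgroup G) ∧ z ^ 2 = 1 ∧ ∀ s ∈ (S : Subgroup G), s * z = z * s} ≤
        normalizer ((S : Subgroup G) : Set G)) : GH G := by
  refine ⟨hL.1, by rw [O2, piCoreOf_singleton_top Nat.prime_two, hO], fun N hN' => ?_⟩
  have c2 : N ⊓ 𝐂(O2 N) ≤ O2 N := by
    obtain ⟨T, h1, h2, rfl⟩ := hN'
    intro x hx
    have := hL.2 T h1 h2 (x := ⟨x, hx.1⟩) (mem_centralizer_iff.2 fun y hy => Subtype.ext
      (mem_cent_iff.1 hx.2 y (by rw [O2, piCoreOf_singleton Nat.prime_two]; exact ⟨y, hy, rfl⟩)))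
    rw [O2, piCoreOf_singleton Nat.prime_two]
    exact ⟨_, this, rfl⟩
  refine ⟨c2, hN N hN', fun U hU => ?_⟩
  obtain ⟨S, hS, hUS⟩ := exists_sylowIn_ge hU.piGrp (le_top : U ≤ ⊤)
  obtain ⟨T, h1, h2, rfl⟩ := hN'
  have hT : T ≤ U := hU.normal_le (normalIn_normalizer T) (h1.piGrp Nat.prime_two)
  have k1 : Om S ≤ U := le_trans (le_trans (le_inf (norms_of_cents ((Om_cents S).trans (cent_mono (hT.trans hUS))))
    ((Om_cents S).trans (cent_mono (hU.piCoreOf_le.trans hUS)))) c2) hU.piCoreOf_le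
  have k2 : 𝐂(Om S) ≤ 𝐍(S) := by
    obtain ⟨S', rfl⟩ := SylowIn.exists_sylow_top hS
    refine le_trans (centralizer_le ?_) (hZ S')
    rintro z ⟨a, b, c⟩
    exact ⟨a, by rwa [pow_two] at b, c⟩
  have k3 : S ⊓ 𝐍(T) = U := hU.eq_of_le (le_inf hUS hU.le) inf_le_right (hS.piGrp.of_le inf_le_left)
  conv_rhs => rw [← k3]
  exact norms_inf (inf_le_right.trans ((cent_mono (Om_le_Om k1 hUS)).trans k2)) (norms_self_of_le inf_le_left)

/-- `B` is the Baumann subgroup of a Sylow 2-subgroup of `N` -/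
def Good (B N : Subgroup G) : Prop := ∃ U, SylowIn 2 U N ∧ Bm U = B

/-- a minimal parabolic all of whose 2-local overgroups are good -/
def PP (B P : Subgroup G) : Prop := Intr B P ∧ ∀ N, IsTwoLocal N → P ≤ N → Good B N

theorem loc_cj (h : IsTwoLocal N) (g : G) : IsTwoLocal (cj g N) := by
  obtain ⟨T, h1, h2, rfl⟩ := h
  exact ⟨cj g T, isPGroup_cj h1 g, by simpa using h2, cj_normalizer g T⟩

theorem Good.cj (h : Good B N) (g : G) : Good (cj g B) (cj g N) := by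
  obtain ⟨U, h1, rfl⟩ := h
  exact ⟨_, h1.cj g, (cj_Bm g U).symm⟩

theorem PP.cj (h : PP B P) (g : G) : PP (cj g B) (cj g P) := by
  refine ⟨h.1.cj g, fun N h1 h2 => ?_⟩
  have := (h.2 _ (loc_cj h1 g⁻¹) (cj_le_iff.1 h2)).cj g
  rwa [cj_cj, mul_inv_cancel, cj_one] at this

theorem GH.a1 (H : GH G) (hN : IsTwoLocal N) (h : Good B N) :
    N ≤ sSup {P | Intr B P ∧ P ≤ N} ⊔ (N ⊓ 𝐍(B)) := by
  obtain ⟨U, h1, rfl⟩ := h
  exact (H.lh N hN).a1 h1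

theorem GH.a2 (H : GH G) (hN : IsTwoLocal N) (h : Good B N) (I : Intr B P) (hP : P ≤ N) (I' : Intr B P')
    (hP' : P' ≤ N) (hne : P ≠ P') : ∃ x ∈ P', x ∉ B ∧ x ∈ 𝐂(WW P) := by
  obtain ⟨U, h1, rfl⟩ := h
  exact (H.lh N hN).a2 h1 I hP I' hP' hne

theorem GH.loc_ne_top (H : GH G) (hN : IsTwoLocal N) : N ≠ ⊤ := by
  obtain ⟨T, h1, h2, rfl⟩ := hN
  exact fun e => h2 (eq_bot_of_piCoreOf_eq_bot H.o2 ⟨le_top, e.ge⟩ (h1.piGrp Nat.prime_two))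

theorem strongly_embedded (h0 : M ≠ ⊤) (h1 : Even (Nat.card M))
    (h : ∀ T, PiGrp {2} T → T ≠ ⊥ → T ≤ M → 𝐍(T) ≤ M) : IsStronglyEmbedded M := by
  refine ⟨h0, h1, fun g hg => ?_⟩
  by_contra n
  obtain ⟨T, hT⟩ := exists_sylowIn 2 (M ⊓ cj g M)
  have t0 : T ≠ ⊥ := SylowIn.ne_bot hT Nat.prime_two (even_iff_two_dvd.1 (Nat.not_odd_iff_even.1 n))
  have t1 : T ≤ M := hT.le.trans inf_le_left
  have t2 : cj g⁻¹ T ≤ M := le_cj_iff.1 (hT.le.trans inf_le_right)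
  have n1 := h T hT.piGrp t0 t1
  have n2 := h _ (hT.piGrp.cj g⁻¹) (by simpa using t0) t2
  rw [← cj_normalizer] at n2
  have hS := SylowIn.of_norm_le_top hT (le_inf n1 (le_cj_iff.2 n2))
  obtain ⟨m, hm, e⟩ := SylowIn.exists_cj (hS.of_le t1 le_top)
    ((hS.cj_of_mem (mem_top g⁻¹)).of_le t2 le_top)
  have : g * m ∈ 𝐍(T) := by rw [mem_normalizer_iff_cj, cj_mul, ← e, cj_cj, mul_inv_cancel, cj_one]
  exact hg ((mul_mem_cancel_right hm).1 (n1 this))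

theorem eq_of_Bm (hU : PiGrp {2} U) (h : Bm (U ⊓ 𝐍(B)) = B) : U ⊓ 𝐍(B) = U :=
  eq_of_inf_normalizer_le (hU.isPGroup Nat.prime_two) inf_le_left
    (inf_le_inf_left U (by conv_rhs => rw [← h]
                           exact norms_Bm le_rfl))

theorem GH.exists_B (H : GH G) (hse : ¬ ∃ K : Subgroup G, IsStronglyEmbedded K) :
    ∃ B : Subgroup G, PiGrp {2} B ∧ (∃ P, PP B P) ∧ O2 (B ⊔ sSup {P | PP B P}) = ⊥ := by
  obtain ⟨S, hS⟩ := exists_sylowIn 2 (⊤ : Subgroup G)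
  have s0 : S ≠ ⊥ := SylowIn.ne_bot hS Nat.prime_two (by rw [card_top]; exact even_iff_two_dvd.1 H.even)
  obtain ⟨M, hSM, hM, hmax⟩ := exists_maximal_ge IsTwoLocal
    (loc_of (hS.piGrp.of_le (Bm_le S)) (Bm_ne_bot hS.piGrp s0))
  have sm : S ≤ M := (norms_Bm le_normalizer).trans hSM
  have hSM' : SylowIn 2 S M := hS.of_le sm le_top
  have hex : ∃ T, PiGrp {2} T ∧ T ≠ ⊥ ∧ T ≤ M ∧ ∃ N, IsTwoLocal N ∧ ¬ N ≤ M ∧ T ≤ N := by
    by_contra n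
    push Not at n
    refine hse ⟨M, strongly_embedded (H.loc_ne_top hM) (even_iff_two_dvd.2
      ((hS.piGrp.dvd_card_of_ne_bot s0).trans (card_dvd_of_le' sm))) fun T h1 h2 h3 => ?_⟩
    by_contra k
    exact n T h1 h2 h3 _ (loc_of h1 h2) k le_normalizer
  obtain ⟨T, ⟨t1, t2, t3, N₀, n1, n2, n3⟩, hT⟩ := Set.Finite.exists_maximalFor mu
    {T : Subgroup G | PiGrp {2} T ∧ T ≠ ⊥ ∧ T ≤ M ∧ ∃ N, IsTwoLocal N ∧ ¬ N ≤ M ∧ T ≤ N}
    (Set.toFinite _) hex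
  obtain ⟨B, hB⟩ : ∃ B, B = Bm T := ⟨_, rfl⟩
  have b1 : PiGrp {2} B := hB ▸ t1.of_le (Bm_le T)
  have b2 : B ≠ ⊥ := hB ▸ Bm_ne_bot t1 t2
  have b3 : B ≤ M := hB ▸ (Bm_le T).trans t3
  have b4 : Bm B = B := by rw [hB, Bm_Bm]
  have b5 : mu B = mu T := by rw [hB, mu_Bm]
  have key : ∀ T', PiGrp {2} T' → B ≤ T' → T' ≤ M → ∀ N, IsTwoLocal N → ¬ N ≤ M → T' ≤ N → Bm T' = B := by
    intro T' h1 h2 h3 N h4 h5 h6
    have m1 := mu_mono h2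
    rw [← b4]
    refine Bm_eq_of_mu h2 (b5 ▸ hT ⟨h1, fun e => b2 (le_bot_iff.1 (h2.trans e.le)), h3, N, h4, h5, h6⟩ (b5 ▸ m1))
  have c1 : 𝐍(B) ≤ M := by
    by_contra n
    obtain ⟨U, hU, hBU⟩ := exists_sylowIn_ge b1 b3
    have e := key (U ⊓ 𝐍(B)) (hU.piGrp.of_le inf_le_left) (le_inf hBU le_normalizer)
      (inf_le_left.trans hU.le) _ (loc_of b1 b2) n inf_le_right
    rw [eq_of_Bm hU.piGrp e] at e
    obtain ⟨m, hm, rfl⟩ := SylowIn.exists_cj hSM' hU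
    rw [← e, ← cj_Bm, ← cj_normalizer] at n
    exact n (cj_le_of_le hSM hm)
  have c2 : ∀ N, IsTwoLocal N → B ≤ N → ¬ N ≤ M → Good B N := by
    intro N h1 h2 h3
    obtain ⟨U, hU, hBU⟩ := exists_sylowIn_ge b1 h2
    have e := key (U ⊓ 𝐍(B)) (hU.piGrp.of_le inf_le_left) (le_inf hBU le_normalizer)
      (inf_le_right.trans c1) _ h1 h3 (inf_le_left.trans hU.le)
    rw [eq_of_Bm hU.piGrp e] at e
    exact ⟨U, hU, e⟩
  obtain ⟨P₀, p1, p2⟩ : ∃ P, PP B P ∧ ¬ P ≤ M := by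
    by_contra n
    push Not at n
    refine n2 ((H.a1 n1 (c2 N₀ n1 (hB ▸ (Bm_le T).trans n3) n2)).trans (sup_le (sSup_le ?_) (inf_le_right.trans c1)))
    rintro P ⟨I, -⟩
    by_contra k
    exact k (n P ⟨I, fun N h1 h2 => c2 N h1 (I.le.trans h2) fun j => k (h2.trans j)⟩)
  refine ⟨B, b1, ⟨P₀, p1⟩, ?_⟩
  by_contra n
  obtain ⟨X, hX⟩ : ∃ X, X = B ⊔ sSup {P | PP B P} := ⟨_, rfl⟩
  rw [← hX] at n
  have x1 : ∀ P, PP B P → P ≤ X := fun P h => hX ▸ (le_sSup (s := {P | PP B P}) h).trans le_sup_right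
  have y1 := loc_of (piCoreOf_piGrp {2} X) n
  have y2 : X ≤ 𝐍(O2 X) := piCoreOf_norm _ X
  have y3 : ¬ 𝐍(O2 X) ≤ M := fun k => p2 (((x1 _ p1).trans y2).trans k)
  have y4 : 𝐍(B) ≤ 𝐍(O2 X) := by
    refine norms_piCoreOf _ (hX ▸ norms_sup le_rfl (norms_sSup_of_cj fun g hg P h => ?_))
    have := PP.cj h g
    rwa [cj_eq_of_mem_normalizer hg] at this
  obtain ⟨U, hU, e⟩ := c2 _ y1 ((hX ▸ le_sup_left : B ≤ X).trans y2) y3
  have u1 : 𝐍(U) ≤ 𝐍(B) := e ▸ norms_Bm le_rfl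
  have u2 := SylowIn.of_norm_le_top hU (u1.trans y4)
  have all : ∀ N, B ≤ N → Good B N := by
    intro N h
    obtain ⟨U', hU', hle⟩ := exists_sylowIn_ge b1 h
    obtain ⟨g, -, hg⟩ := SylowIn.exists_le_cj u2 hU'.piGrp le_top
    refine ⟨U', hU', b4 ▸ Bm_eq_of_mu hle ?_⟩
    have := mu_mono hg
    rwa [mu_cj, ← mu_Bm U, e] at this
  refine y3 (hmax _ y1 ((H.a1 hM (all M b3)).trans (sup_le (sSup_le ?_) (inf_le_right.trans y4)))).le
  rintro P ⟨I, -⟩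
  exact (x1 P ⟨I, fun N _ h => all N (I.le.trans h)⟩).trans y2

theorem GH.exists_pair (H : GH G) (hse : ¬ ∃ K : Subgroup G, IsStronglyEmbedded K) :
    ∃ B P P' : Subgroup G, PP B P ∧ PP B P' ∧ ∀ R, PiGrp {2} R → P ≤ 𝐍(R) → P' ≤ 𝐍(R) → R = ⊥ := by
  obtain ⟨B, b1, ⟨P, hP⟩, h⟩ := H.exists_B hse
  by_contra n
  push Not at n
  refine hP.1.W_ne_bot (eq_bot_of_piCoreOf_eq_bot h ⟨hP.1.W_le.trans le_sup_left,
    sup_le (hP.1.le.trans (le_norm_WW P)) (sSup_le fun P' hP' => ?_)⟩ (b1.of_le hP.1.W_le))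
  by_cases e : P = P'
  · exact e ▸ le_norm_WW P
  obtain ⟨R, r1, r2, r3, r4⟩ := n B P P' hP hP'
  obtain ⟨x, x1, x2, x3⟩ := H.a2 (loc_of r1 r4) (hP.2 _ (loc_of r1 r4) r2) hP.1 r2 hP'.1 r3 e
  exact hP'.1.gen x1 x2 (hP.1.le.trans (le_norm_WW P)) (centralizer_le_normalizer _ x3)

end CA.ZN
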