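/-
The amalgam of two minimal parabolics over the Baumann subgroup: local lemmas.
-/
import Cfsg.Agent.Lib.ZN.Step0

set_option autoImplicit false
set_option linter.unusedSectionVars false

namespace CA.ZN

open Cfsg Subgroup CA

universe u

variable {G : Type u} [Group G] [Finite G] {A B N R U Y P P' : Subgroup G}
  {a b c d e x y z g h r w r' w' : G}

/-- two parabolics without a common 2-local overgroup -/
structure Pair (B P P' : Subgroup G) : Prop where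
  H : GH G
  p : PP B P
  p' : PP B P'
  triv : ∀ R, PiGrp {2} R → P ≤ 𝐍(R) → P' ≤ 𝐍(R) → R = ⊥

/-- the conjugates of `w` under `P` commute -/
def TT (w : G) (P : Subgroup G) : Prop := ∀ g ∈ P, Commute w (g * w * g⁻¹)

theorem Intr.q_conj (_I : Intr B P) (hg : g ∈ P) (hx : x ∈ O2 P) : g * x * g⁻¹ ∈ O2 P :=
  conj_mem_of_mem_normalizer (piCoreOf_norm _ P hg) hx

theorem Intr.q_conj' (_I : Intr B P) (hg : g ∈ P) (hx : x ∈ O2 P) : g⁻¹ * x * g ∈ O2 P :=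
  conj_inv_mem_of_mem_normalizer (piCoreOf_norm _ P hg) hx

theorem Intr.z_conj (_I : Intr B P) (hg : g ∈ P) (hx : x ∈ Om (O2 P)) : g * x * g⁻¹ ∈ Om (O2 P) :=
  conj_mem_of_mem_normalizer (le_norm_ZP P hg) hx

theorem Om_comm (hz : z ∈ Om Y) (hx : x ∈ Y) : Commute x z := hz.2.2 x hx

theorem conj_sq (hx : x * x = 1) (g : G) : g * x * g⁻¹ * (g * x * g⁻¹) = 1 := by
  rw [show g * x * g⁻¹ * (g * x * g⁻¹) = g * (x * x) * g⁻¹ by group, hx]; group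

theorem Dat.conj_or' (D : Dat B P r w) (hx : g⁻¹ * x * g ∈ B) :
    x * (g * w * g⁻¹) * x⁻¹ = g * w * g⁻¹ ∨ x * (g * w * g⁻¹) * x⁻¹ = g * w * g⁻¹ * (g * r * g⁻¹) := by
  rw [show x * (g * w * g⁻¹) * x⁻¹ = g * ((g⁻¹ * x * g) * w * (g⁻¹ * x * g)⁻¹) * g⁻¹ by group]
  rcases D.conj_or D.wz hx with k | k <;> rw [k]
  · exact Or.inl rfl
  · right; group

namespace Pair

variable (X : Pair B P P')
include X

theorem symm : Pair B P' P := ⟨X.H, X.p', X.p, fun R h1 h2 h3 => X.triv R h1 h3 h2⟩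

theorem I : Intr B P := X.p.1

theorem I' : Intr B P' := X.p'.1

theorem cc (hz : z * z = 1) (h1 : z ∈ 𝐂(P)) (h2 : z ∈ 𝐂(P')) : z = 1 :=
  zpowers_eq_bot.1 (X.triv _ (EA.zpowers hz).piGrp (norms_zpowers_of_cent1 (mem_cent_iff_le_cent1.1 h1))
    (norms_zpowers_of_cent1 (mem_cent_iff_le_cent1.1 h2)))

theorem exists_q : ∃ q ∈ O2 P', q ∉ O2 P := by
  by_contra n
  push Not at n
  have e : O2 P' = O2 P := eq_of_le_of_card_eq n (by
    have h1 := X.I.card_B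
    have h2 := X.I'.card_B
    omega)
  have := X.triv (O2 P) (piCoreOf_piGrp {2} P) (piCoreOf_norm _ P) (by rw [← e]; exact piCoreOf_norm _ P')
  exact X.I.W_ne_bot (le_bot_iff.1 (((WW_le P).trans (Om_le _)).trans this.le))

variable (D : Dat B P r w) (D' : Dat B P' r' w')
include D D'

theorem wq (hc : Commute w w') : w ∈ O2 P' := D'.mem_q D'.wz D'.wn (X.I.q_le D.wz.1) hc

theorem L3 (hc : Commute w w') (hT : TT w P') : r ∈ 𝐂(P') := by
  have I := X.I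
  have I' := X.I'
  by_contra hr
  obtain ⟨A, hA, hA'⟩ := I'.off
  obtain ⟨a, ha, ha'⟩ := SetLike.not_le_iff_exists.1 hA'
  obtain ⟨h, hh, hh', -⟩ := I'.exists_h
  have aB := hA.le ha
  have aP := I'.le aB
  have r2z : h * r * h⁻¹ ∈ Om (O2 P') := I'.z_conj hh (I'.z_le D.rz)
  have r2n : h * r * h⁻¹ ∉ Om B := fun k => hr (I'.central_of (Om_cents B D.rz) hh hh' (Om_cents B k))
  have r3 := D'.act' r2z r2n aB ha'
  have w2q : h * w * h⁻¹ ∈ O2 P' := I'.q_conj hh (X.wq D D' hc)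
  have w2s := conj_sq D.ww h
  have o2 : ∀ q ∈ O2 P', q * (h * w * h⁻¹) * q⁻¹ = h * w * h⁻¹ ∨
      q * (h * w * h⁻¹) * q⁻¹ = h * w * h⁻¹ * (h * r * h⁻¹) := fun q hq =>
    D.conj_or' (I'.q_le (I'.q_conj' hh hq))
  have nq : ¬ ∀ q ∈ O2 P', Commute q (h * w * h⁻¹) := fun k => by
    obtain ⟨q, hq, hq'⟩ := X.exists_q
    refine hq' (D.mem_q D.wz D.wn (I'.q_le hq) ?_)
    simpa [mul_assoc] using ((k _ (I'.q_conj hh hq)).map (MulAut.conj h⁻¹).toMonoidHom).eq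
  have c23 : Commute (h * w * h⁻¹) (a * (h * w * h⁻¹) * a⁻¹) := by
    have := (hT _ (P'.mul_mem (P'.mul_mem (P'.inv_mem hh) aP) hh)).map (MulAut.conj h).toMonoidHom
    simpa [mul_assoc] using this
  generalize h * w * h⁻¹ = w2 at *
  generalize h * r * h⁻¹ = r2 at *
  have r21 : r2 ≠ 1 := fun k => r2n (k ▸ one_mem _)
  have o3 : ∀ q ∈ O2 P', q * (a * w2 * a⁻¹) * q⁻¹ = a * w2 * a⁻¹ ∨
      q * (a * w2 * a⁻¹) * q⁻¹ = a * w2 * a⁻¹ * (r2 * r') := fun q hq => by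
    rw [show q * (a * w2 * a⁻¹) * q⁻¹ = a * ((a⁻¹ * q * a) * w2 * (a⁻¹ * q * a)⁻¹) * a⁻¹ by group, ← r3]
    rcases o2 _ (I'.q_conj' aP hq) with k | k <;> rw [k]
    · exact Or.inl rfl
    · right; group
  have w3q := I'.q_conj aP w2q
  have w3s := conj_sq w2s a
  have r'q := I'.z_le D'.rz
  -- the subgroup `A₁`
  have i1 : (A ⊓ O2 P').relIndex A = 2 := idx2_of ha (fun k => ha' k.2) fun b hb => by
    by_cases k : b ∈ O2 P'
    · exact Or.inl ⟨hb, k⟩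
    · exact Or.inr ⟨A.mul_mem hb ha, I'.mul_q (hA.le hb) (hA.le ha) k ha'⟩
  have c1 := card_mul_relIndex (inf_le_left : A ⊓ O2 P' ≤ A)
  have wc : w' ∈ 𝐂((A ⊓ O2 P' : Subgroup G)) := cent_mono inf_le_right (Om_cents _ D'.wz)
  have wA : w' ∉ A ⊓ O2 P' := fun k => ha' (D'.mem_q D'.wz D'.wn aB (hA.ea.comm ha k.1))
  have c2 := card_sup_zpowers (p := 2) (centralizer_le_normalizer _ wc) wA (by rw [pow_two, D'.ww]; exact one_mem _)
  have m1 := fun y => mem_sup_zpowers_inv (y := y) D'.ww (centralizer_le_normalizer _ wc)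
  have l1 : A ⊓ O2 P' ⊔ zpowers w' ≤ O2 P' := sup_le inf_le_right (zpowers_le.2 D'.wz.1)
  have hA1 : Aa B (A ⊓ O2 P' ⊔ zpowers w') := ⟨l1.trans I'.q_le,
    (hA.ea.of_le inf_le_left).sup (EA.zpowers D'.ww) (zpowers_le.2 wc), by rw [c2, ← hA.card, ← c1, i1]⟩
  have an : ∀ y ∈ A ⊓ O2 P' ⊔ zpowers w', a * y * a⁻¹ = y ∨ a * y * a⁻¹ = y * r' := by
    intro y hy
    rcases (m1 y).1 hy with k | k
    · exact Or.inl (conj_eq_iff_comm.2 (hA.ea.comm ha k.1))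
    · right
      have e1 := conj_eq_iff_comm.2 (hA.ea.comm ha k.1)
      have e2 := D'.act a aB ha'
      calc a * y * a⁻¹ = (a * (y * w') * a⁻¹) * (a * w' * a⁻¹)⁻¹ := by group
        _ = y * r' := by
          rw [e1, e2, mul_inv_rev, (Om_ea _).inv D'.rz, mul_assoc, ← mul_assoc w', ← D'.rw_comm I']; group
  have ac : ∀ y ∈ A ⊓ O2 P' ⊔ zpowers w', Commute y w2 → Commute y (a * w2 * a⁻¹) := by
    intro y hy hy'
    have k : Commute (a * y * a⁻¹) (a * w2 * a⁻¹) := by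
      simpa [mul_assoc] using hy'.map (MulAut.conj a).toMonoidHom
    rcases an y hy with j | j <;> rw [j] at k
    · exact k
    · simpa using k.mul_left (Om_comm r'q w3q).symm.inv_left
  have rA : r' ∈ A ⊓ O2 P' ⊔ zpowers w' := hA1.Om_le D'.rz
  generalize A ⊓ O2 P' ⊔ zpowers w' = A₁ at *
  have aa := hA.ea a ha
  have back : a * w2 * a⁻¹ ∈ A₁ → w2 ∈ A₁ := fun k => by
    have e : a * (a * w2 * a⁻¹) * a⁻¹ = w2 := by
      rw [show a * (a * w2 * a⁻¹) * a⁻¹ = (a * a) * w2 * (a * a)⁻¹ by group, aa]; group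
    rcases an _ k with j | j <;> rw [e] at j <;> rw [j]
    · exact k
    · exact mul_mem k rA
  by_cases hc1 : w2 ∈ 𝐂(A₁)
  · refine nq fun q hq => ?_
    refine conj_eq_iff_comm.1 ((o2 q hq).resolve_right fun k => ?_)
    have k1 : q * (a * w2 * a⁻¹) * q⁻¹ = a * w2 * a⁻¹ * r2 := by
      rcases an _ (hA1.mem_of (I'.q_le w2q) w2s hc1) with j | j <;> rw [j]
      · exact k
      · rw [show q * (w2 * r') * q⁻¹ = q * w2 * q⁻¹ * (q * r' * q⁻¹) by group, k,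
          conj_eq_iff_comm.2 (Om_comm r'q hq), mul_assoc, mul_assoc, (Om_ea _).comm r2z r'q]
    rcases o3 q hq with j | j <;> rw [k1] at j
    · exact r21 (by simpa using j)
    · exact D'.r1 (by simpa using j)
  · obtain ⟨y₀, hy₀, hy₀'⟩ : ∃ y ∈ A₁, y * w2 ≠ w2 * y := by
      by_contra n
      push Not at n
      exact hc1 (mem_cent_iff.2 n)
    have e0 := (o2 _ (l1 hy₀)).resolve_left fun k => hy₀' (conj_eq_iff_comm.1 k)
    have i2 : (A₁ ⊓ 𝐂[w2]).relIndex A₁ = 2 := idx2_of hy₀ (fun k => hy₀' (mem_cent1_iff.1 k.2)) fun y hy => by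
      rcases o2 _ (l1 hy) with k | k
      · exact Or.inl ⟨hy, mem_cent1_iff.2 (conj_eq_iff_comm.1 k)⟩
      · refine Or.inr ⟨mul_mem hy hy₀, mem_cent1_iff.2 (conj_eq_iff_comm.1 ?_)⟩
        rw [show y * y₀ * w2 * (y * y₀)⁻¹ = y * (y₀ * w2 * y₀⁻¹) * y⁻¹ by group, e0,
          show y * (w2 * r2) * y⁻¹ = y * w2 * y⁻¹ * (y * r2 * y⁻¹) by group, k,
          conj_eq_iff_comm.2 (Om_comm r2z (l1 hy)), mul_assoc, r2z.2.1, mul_one]
    have d1 := card_mul_relIndex (inf_le_left : A₁ ⊓ 𝐂[w2] ≤ A₁)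
    have xc : w2 ∈ 𝐂((A₁ ⊓ 𝐂[w2] : Subgroup G)) := mem_cent_iff_le_cent1.2 inf_le_right
    have xA : w2 ∉ A₁ := fun k => hy₀' (hA1.ea.comm hy₀ k)
    have d2 := card_sup_zpowers (p := 2) (centralizer_le_normalizer _ xc) (fun k => xA k.1)
      (by rw [pow_two, w2s]; exact one_mem _)
    have hA3 : Aa B (A₁ ⊓ 𝐂[w2] ⊔ zpowers w2) := ⟨sup_le (inf_le_left.trans hA1.le) (zpowers_le.2 (I'.q_le w2q)),
      (hA1.ea.of_le inf_le_left).sup (EA.zpowers w2s) (zpowers_le.2 xc), by rw [d2, ← hA1.card, ← d1, i2]⟩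
    have k := hA3.mem_of (I'.q_le w3q) w3s (mem_cent_iff_le_cent1.2 (sup_le
      (fun y hy => mem_cent1_iff.2 (ac y hy.1 (mem_cent1_iff.1 hy.2))) (zpowers_le.2 (mem_cent1_iff.2 c23))))
    rcases (mem_sup_zpowers_inv w2s (centralizer_le_normalizer _ xc)).1 k with j | j
    · exact xA (back j.1)
    · have e1 := conj_eq_iff_comm.2 (hA1.ea.comm hy₀ j.1)
      rw [show y₀ * (a * w2 * a⁻¹ * w2) * y₀⁻¹ = y₀ * (a * w2 * a⁻¹) * y₀⁻¹ * (y₀ * w2 * y₀⁻¹) by group, e0] at e1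
      rcases o3 _ (l1 hy₀) with i | i <;> rw [i] at e1
      · exact r21 (by simpa using e1)
      · rw [mul_assoc, mul_right_inj, ← mul_assoc, ← (Om_comm (mul_mem r2z r'q) w2q).eq, mul_assoc,
          mul_assoc, mul_eq_left, (Om_ea _).comm r'q r2z, ← mul_assoc, r2z.2.1, one_mul] at e1
        exact D'.r1 e1

theorem TT_iff (hc : Commute w w') (hg : g ∈ P') (hy : y ∈ Om (O2 P)) (hz : z ∈ Om (O2 P))
    (h : Commute w (g * w * g⁻¹)) : Commute y (g * z * g⁻¹) := by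
  have I := X.I
  have I' := X.I'
  have wq := X.wq D D' hc
  have zq : ∀ y ∈ Om (O2 P), y ∈ O2 P' := fun y hy => by
    rcases D.zp y hy with k | k
    · exact I'.zq k
    · exact (mul_mem_cancel_right wq).1 (I'.zq k)
  have k1 : ∀ u ∈ Om B, ∀ v ∈ Om (O2 P), Commute u (g * v * g⁻¹) := fun u hu v hv =>
    (Om_comm (I'.z_le hu) (I'.q_conj hg (zq v hv))).symm
  have k2 : ∀ u ∈ Om B, ∀ v ∈ Om (O2 P), Commute v (g * u * g⁻¹) := fun u hu v hv =>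
    Om_comm (I'.z_conj hg (I'.z_le hu)) (zq v hv)
  rcases D.zp y hy with a | a
  · exact k1 y a z hz
  rcases D.zp z hz with b | b
  · exact k2 z b y hy
  have h1 : Commute w (g * z * g⁻¹) := by
    simpa [mul_assoc] using (k2 _ b w D.wz).mul_right h.inv_right
  simpa using (k1 _ a z hz).mul_left h1.inv_left

theorem L2 (hc : Commute w w') (hT : ¬ TT w P') (hg : g ∈ P') (hg' : g ∉ B) :
    g * w * g⁻¹ ∉ O2 P ∧ (g * w * g⁻¹ * w) ^ 2 = r ∧ r ∈ 𝐂(P') := by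
  have I := X.I
  have I' := X.I'
  have wq := X.wq D D' hc
  have nc : ∀ g ∈ P', g ∉ B → ¬ Commute w (g * w * g⁻¹) := by
    intro g hg hg' k
    refine hT fun g₀ h₀ => ?_
    by_cases j : g₀ ∈ B
    · exact (Om_ea _).comm D.wz (I.z_conj (I.le j) D.wz)
    obtain ⟨b, hb, b', hb', rfl⟩ := I'.dc' hg hg' h₀ j
    have := (X.TT_iff D D' hc hg (I.z_conj (I.le (B.inv_mem hb)) D.wz) (I.z_conj (I.le hb') D.wz) k).map
      (MulAut.conj b).toMonoidHom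
    simpa [mul_assoc] using this
  have act : ∀ g ∈ P', g ∉ B → g * w * g⁻¹ ∉ O2 P ∧ (g * w * g⁻¹ * w) ^ 2 = r := by
    intro g hg hg'
    have n : g * w * g⁻¹ ∉ O2 P := fun k => nc g hg hg' (Om_comm D.wz k).symm
    refine ⟨n, ?_⟩
    have e := D.act _ (I'.q_le (I'.q_conj hg wq)) n
    rw [inv_eq_of_mul_eq_one_right (conj_sq D.ww g)] at e
    rw [pow_two, ← mul_assoc, e, ← D.rw_comm I, mul_assoc, D.ww, mul_one]
  obtain ⟨h1, h2⟩ := act g hg hg'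
  obtain ⟨-, h3⟩ := act g⁻¹ (P'.inv_mem hg) (by simpa using hg')
  refine ⟨h1, h2, I'.central_of_comm (Om_cents B D.rz) hg hg' (conj_eq_iff_comm.1 ?_)⟩
  have wi := (Om_ea _).inv D.wz
  calc g * r * g⁻¹ = g * (g⁻¹ * w * g⁻¹⁻¹ * w) ^ 2 * g⁻¹ := by rw [h3]
    _ = ((g * w⁻¹ * g⁻¹ * w⁻¹) ^ 2)⁻¹ := by rw [pow_two, pow_two]; group
    _ = r := by rw [wi, h2, (Om_ea _).inv D.rz]

theorem r_cent (hc : Commute w w') : r ∈ 𝐂(P') := by
  by_cases hT : TT w P'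
  · exact X.L3 D D' hc hT
  · obtain ⟨h, h1, h2, -⟩ := X.I'.exists_h
    exact (X.L2 D D' hc hT h1 h2).2.2

theorem four (hc : Commute w w') (hT : ¬ TT w P') (hg : g ∈ P') (hg' : g ∉ B) {u : G} (hu : u ∈ B)
    (hu' : u ∉ O2 P') (uu : u * u = 1) : (u * (g * w * g⁻¹)) ^ 4 = r := by
  have I' := X.I'
  have k1 := I'.conj_not_mem (P'.inv_mem hg) (by simpa using hg') hu hu'
  obtain ⟨-, k2, k3⟩ := X.L2 D D' hc hT (P'.mul_mem (P'.mul_mem (P'.inv_mem hg) (I'.le hu))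
    (P'.inv_mem (P'.inv_mem hg))) k1
  have ui := inv_eq_of_mul_eq_one_right uu
  calc (u * (g * w * g⁻¹)) ^ 4 = (u * (g * w * g⁻¹) * u * (g * w * g⁻¹)) ^ 2 := by
        rw [show 4 = 2 * 2 from rfl, pow_mul, pow_two (u * _), ← mul_assoc (u * _)]
    _ = (u * (g * w * g⁻¹) * u⁻¹ * (g * w * g⁻¹)) ^ 2 := by rw [ui]
    _ = g * (g⁻¹ * u * g⁻¹⁻¹ * w * (g⁻¹ * u * g⁻¹⁻¹)⁻¹ * w) ^ 2 * g⁻¹ := by rw [pow_two, pow_two]; group
    _ = r := by rw [k2]; exact conj_eq_iff_comm.2 (mem_cent_iff.1 k3 g hg)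

theorem not_NN (hc : Commute w w') (hT : ¬ TT w P') (hT' : ¬ TT w' P) : False := by
  obtain ⟨g, g1, g2, -⟩ := X.I'.exists_h
  obtain ⟨h, h1, h2, -⟩ := X.I.exists_h
  have u1 := X.I'.q_le (X.I'.q_conj g1 (X.wq D D' hc))
  have v1 := X.I.q_le (X.I.q_conj h1 (X.symm.wq D' D hc.symm))
  have e1 := X.four D D' hc hT g1 g2 v1 (X.symm.L2 D' D hc.symm hT' h1 h2).1 (conj_sq D'.ww h)
  have e2 := X.symm.four D' D hc.symm hT' h1 h2 u1 (X.L2 D D' hc hT g1 g2).1 (conj_sq D.ww g)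
  generalize g * w * g⁻¹ = u at *
  generalize h * w' * h⁻¹ = v at *
  have e3 : (u * v) ^ 4 = u * (v * u) ^ 4 * u⁻¹ := by rw [← conj_pow]; group
  rw [e1, e2, D.fixB u1] at e3
  exact D.r_nc X.I (e3 ▸ X.symm.r_cent D' D hc.symm)

theorem not_NT (hc : Commute w w') (hT : ¬ TT w P') (hT' : TT w' P) : False := by
  have I := X.I
  have I' := X.I'
  obtain ⟨g, g1, g2, -⟩ := I'.exists_h
  obtain ⟨h, h1, h2, -⟩ := I.exists_h
  obtain ⟨b, hb, hb'⟩ := I'.exists_a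
  have rc := X.r_cent D D' hc
  have w'q := X.symm.wq D' D hc.symm
  have uq := I'.q_conj g1 (X.wq D D' hc)
  have un := (X.L2 D D' hc hT g1 g2).1
  have us := conj_sq D.ww g
  have o1 : ∀ d ∈ O2 P', d * (g * w * g⁻¹) * d⁻¹ = g * w * g⁻¹ ∨ d * (g * w * g⁻¹) * d⁻¹ = g * w * g⁻¹ * r := by
    intro d hd
    have := D.conj_or' (I'.q_le (I'.q_conj' g1 hd))
    rwa [conj_eq_iff_comm.2 (mem_cent_iff.1 rc g g1)] at this
  have f2 : (b * (g * w * g⁻¹) * b⁻¹ * (g * w * g⁻¹)) ^ 2 = r := by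
    have k1 := I'.conj_not_mem (P'.inv_mem g1) (by simpa using g2) hb hb'
    obtain ⟨-, k2, -⟩ := X.L2 D D' hc hT (P'.mul_mem (P'.mul_mem (P'.inv_mem g1) (I'.le hb))
      (P'.inv_mem (P'.inv_mem g1))) k1
    calc _ = g * (g⁻¹ * b * g⁻¹⁻¹ * w * (g⁻¹ * b * g⁻¹⁻¹)⁻¹ * w) ^ 2 * g⁻¹ := by rw [pow_two, pow_two]; group
      _ = r := by rw [k2]; exact conj_eq_iff_comm.2 (mem_cent_iff.1 rc g g1)
  generalize g * w * g⁻¹ = u at *
  have uB := I'.q_le uq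
  have o2 : ∀ d ∈ O2 P', u * d * u⁻¹ = d ∨ u * d * u⁻¹ = d * r := by
    intro d hd
    rw [show u * d * u⁻¹ = d * (d⁻¹ * u * d⁻¹⁻¹) * u⁻¹ by group]
    rcases o1 _ (inv_mem hd) with k | k <;> rw [k]
    · left; group
    · right; rw [mul_assoc, D.fixB uB]
  have yq := I.q_conj h1 w'q
  have yq' : h * w' * h⁻¹ ∈ O2 P' := D'.mem_q D'.wz D'.wn (I.q_le yq) (hT' h h1).symm
  have hn : P ≤ 𝐍((O2 P ⊓ O2 P' : Subgroup G)) := by
    refine I.gen (g := h⁻¹ * u * h⁻¹⁻¹) (P.mul_mem (P.mul_mem (P.inv_mem h1) (I.le uB)) (P.inv_mem (P.inv_mem h1)))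
      (I.conj_not_mem (P.inv_mem h1) (by simpa using h2) uB un)
      (norms_inf (I.le.trans (piCoreOf_norm _ P)) (I'.le.trans (piCoreOf_norm _ P')))
      (mem_normalizer_of_le_cj fun q hq => mem_cj.2 ?_)
    have m := I.q_conj' (P.mul_mem (P.mul_mem (P.inv_mem h1) (I.le uB)) (P.inv_mem (P.inv_mem h1))) hq.1
    refine ⟨m, D'.mem_q D'.wz D'.wn (I.q_le m) ?_⟩
    have c1 : Commute (h * q * h⁻¹) (h * w' * h⁻¹) := by
      simpa [mul_assoc] using (Om_comm D'.wz hq.2).map (MulAut.conj h).toMonoidHom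
    have c2 : Commute (h * q * h⁻¹) (u * (h * w' * h⁻¹) * u⁻¹) := by
      rcases o2 _ yq' with k | k <;> rw [k]
      · exact c1
      · exact c1.mul_right (Om_comm D.rz (I.q_le (I.q_conj h1 hq.1)))
    simpa [mul_assoc] using (c2.map (MulAut.conj (h⁻¹ * u⁻¹)).toMonoidHom).eq
  have fq : b * u * b⁻¹ * u ∈ O2 P ⊓ O2 P' :=
    ⟨I.mul_q (B.mul_mem (B.mul_mem hb uB) (B.inv_mem hb)) uB
      (fun k => un (by simpa [mul_assoc] using I.q_conj' (I.le hb) k)) un, mul_mem (I'.q_conj (I'.le hb) uq) uq⟩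
  generalize b * u * b⁻¹ * u = f at *
  have rz := I.z_conj h1 (I.z_le D.rz)
  refine I.conj_not_mem h1 h2 uB un (D.mem_B (P.mul_mem (P.mul_mem h1 (I.le uB)) (P.inv_mem h1))
    (conj_eq_iff_comm.1 ?_))
  calc h * u * h⁻¹ * r * (h * u * h⁻¹)⁻¹ = (h * (u * (h⁻¹ * f * h) * u⁻¹) * h⁻¹) ^ 2 := by
        rw [← f2, pow_two, pow_two]; group
    _ = r := by
      rcases o2 _ (conj_inv_mem_of_mem_normalizer (hn h1) fq).2 with k | k <;> rw [k]
      · rw [← f2]; congr 1; group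
      · rw [show h * (h⁻¹ * f * h * r) * h⁻¹ = f * (h * r * h⁻¹) by group, (Om_comm rz fq.1).mul_pow, f2,
          pow_two, rz.2.1, mul_one]

end Pair

end CA.ZN
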