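/-
The amalgam of two minimal parabolics over the Baumann subgroup: the natural modules do not commute.
-/
import Cfsg.Agent.Lib.ZN.Amal

set_option autoImplicit false
set_option linter.unusedSectionVars false

namespace CA.ZN

open Cfsg Subgroup CA

universe u

variable {G : Type u} [Group G] [Finite G] {A B N R U Y P P' : Subgroup G}
  {a b c d e x y z g h r w r' w' : G}

theorem norm_zpowers_inv (hc : c * c = 1) (h1 : c ≠ 1) : 𝐍(zpowers c) = 𝐂[c] := by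
  refine le_antisymm (fun g hg => mem_cent1_iff.2 (conj_eq_iff_comm.1 ?_)) (norms_zpowers_of_cent1 le_rfl)
  exact ((mem_zpowers_inv hc).1 (conj_mem_of_mem_normalizer hg (mem_zpowers c))).resolve_left
    (by simpa using h1)

theorem loc_cent1 (hc : c * c = 1) (h1 : c ≠ 1) : IsTwoLocal 𝐂[c] :=
  norm_zpowers_inv hc h1 ▸ loc_of (EA.zpowers hc).piGrp (by simpa using h1)

theorem EA.closure {s : Set G} (h1 : ∀ x ∈ s, x * x = 1) (h2 : ∀ x ∈ s, ∀ y ∈ s, x * y = y * x) :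
    EA (closure s) := by
  refine (Om_ea (Subgroup.closure s)).of_le ((closure_le _).2 fun x hx => mem_Om_of (subset_closure hx) (h1 x hx) ?_)
  exact mem_cent_iff_le_cent1.2 ((closure_le _).2 fun y hy => mem_cent1_iff.2 (h2 y hy x hx))

/-- adjacency of the central involutions -/
def Adj (r r' c d : G) : Prop :=
  ∃ g : G, (c = g * r' * g⁻¹ ∧ d = g * r * g⁻¹) ∨ (c = g * r * g⁻¹ ∧ d = g * r' * g⁻¹)

theorem Adj.swap (h : Adj r r' c d) : Adj r' r c d := h.imp fun _ => Or.symm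

theorem Adj.symm (h : Adj r r' c d) : Adj r r' d c :=
  h.imp fun _ k => k.symm.imp And.symm And.symm

theorem Adj.conj (h : Adj r r' c d) (x : G) : Adj r r' (x * c * x⁻¹) (x * d * x⁻¹) := by
  obtain ⟨g, ⟨rfl, rfl⟩ | ⟨rfl, rfl⟩⟩ := h
  · exact ⟨x * g, Or.inl ⟨by group, by group⟩⟩
  · exact ⟨x * g, Or.inr ⟨by group, by group⟩⟩

theorem Adj.conj' (h : Adj r r' (x * c * x⁻¹) d) : Adj r r' c (x⁻¹ * d * x) := by
  convert h.conj x⁻¹ using 1 <;> group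

/-- a step of length at most one -/
def Rr (r r' c d : G) : Prop := (∃ e, Adj r r' c e) ∧ (c = d ∨ Adj r r' c d)

theorem Rr.symm (h : Rr r r' c d) : Rr r r' d c := by
  rcases h with ⟨h1, rfl | h⟩
  · exact ⟨h1, Or.inl rfl⟩
  · exact ⟨⟨c, h.symm⟩, Or.inr h.symm⟩

theorem Rr.swap (h : Rr r r' c d) : Rr r' r c d := ⟨h.1.imp fun _ => Adj.swap, h.2.imp_right Adj.swap⟩

theorem Rr.conj (h : Rr r r' c d) (x : G) : Rr r r' (x * c * x⁻¹) (x * d * x⁻¹) := by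
  obtain ⟨⟨e, he⟩, h⟩ := h
  exact ⟨⟨_, he.conj x⟩, h.imp (fun k => by rw [k]) fun k => k.conj x⟩

theorem Rr.refl (h : Rr r r' c d) : Rr r r' c c := ⟨h.1, Or.inl rfl⟩

theorem Adj.rr (h : Adj r r' c d) : Rr r r' c d := ⟨⟨d, h⟩, Or.inr h⟩

/-- distance at most `n` -/
def Near (r r' : G) : ℕ → G → G → Prop
  | 0, c, d => (∃ e, Adj r r' c e) ∧ c = d
  | n + 1, c, d => ∃ e, Near r r' n c e ∧ Rr r r' e d

theorem Near.vx {n : ℕ} (h : Near r r' n c d) : Rr r r' d d := by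
  cases n with
  | zero => obtain ⟨h, rfl⟩ := h; exact ⟨h, Or.inl rfl⟩
  | succ n => obtain ⟨e, -, h⟩ := h; exact h.symm.refl

theorem Near.succ {n : ℕ} (h : Near r r' n c d) : Near r r' (n + 1) c d := ⟨d, h, h.vx⟩

theorem Near.left {n : ℕ} (h1 : Rr r r' c e) : ∀ {d : G}, Near r r' n e d → Near r r' (n + 1) c d := by
  induction n with
  | zero => rintro d ⟨-, rfl⟩; exact ⟨c, ⟨h1.1, rfl⟩, h1⟩
  | succ n ih => rintro d ⟨f, h2, h3⟩; exact ⟨f, ih h2, h3⟩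

theorem Near.symm {n : ℕ} : ∀ {c d : G}, Near r r' n c d → Near r r' n d c := by
  induction n with
  | zero => rintro c d ⟨h, rfl⟩; exact ⟨h, rfl⟩
  | succ n ih => rintro c d ⟨f, h2, h3⟩; exact Near.left h3.symm (ih h2)

theorem Near.left' {n : ℕ} (h : Near r r' (n + 1) c d) : ∃ e, Rr r r' c e ∧ Near r r' n e d := by
  obtain ⟨e, h1, h2⟩ := h.symm
  exact ⟨e, h2.symm, h1.symm⟩

theorem Near.trans {m n : ℕ} (h : Near r r' m c d) : ∀ {e : G}, Near r r' n d e → Near r r' (m + n) c e := by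
  induction n with
  | zero => rintro e ⟨-, rfl⟩; exact h
  | succ n ih => rintro e ⟨f, h2, h3⟩; exact ⟨f, ih h2, h3⟩

theorem Near.mono {m : ℕ} (h : Near r r' m c d) (k : ℕ) : Near r r' (m + k) c d := by
  induction k with
  | zero => exact h
  | succ k ih => exact ih.succ

theorem Near.conj {n : ℕ} (x : G) : ∀ {d : G}, Near r r' n c d → Near r r' n (x * c * x⁻¹) (x * d * x⁻¹) := by
  induction n with
  | zero => rintro d ⟨⟨e, h⟩, rfl⟩; exact ⟨⟨_, h.conj x⟩, rfl⟩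
  | succ n ih => rintro d ⟨f, h2, h3⟩; exact ⟨_, ih h2, h3.conj x⟩

theorem Dat.tri (D : Dat B P r w) (I : Intr B P) (hx : x ∈ WW P) (hy : y ∈ WW P) (hz : z ∈ WW P) (x1 : x ≠ 1)
    (y1 : y ≠ 1) (z1 : z ≠ 1) (hne : x ≠ y) : z = x ∨ z = y ∨ z = x * y := by
  have a := D.rr
  have b := D.ww
  have c := D.rw_comm I
  have e1 : r * (w * r) = w := by rw [← c, ← mul_assoc, a, one_mul]
  have e2 : w * (w * r) = r := by rw [← mul_assoc, b, one_mul]
  have e3 : w * r * r = w := by rw [mul_assoc, a, mul_one]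
  have e4 : w * r * w = r := by rw [← c, mul_assoc, b, mul_one]
  rw [D.mem] at hx hy hz
  rcases hx with rfl | rfl | rfl | rfl <;> rcases hy with rfl | rfl | rfl | rfl <;>
    rcases hz with rfl | rfl | rfl | rfl <;> simp_all

namespace Pair

variable (X : Pair B P P')
include X

theorem zc (hc : c ∈ Om B) (c1 : c ≠ 1) (cP : c ∈ 𝐂(P)) (hz : z ∈ Om B) (zP : z ∈ 𝐂(P)) : z = 1 ∨ z = c := by
  obtain ⟨r', w', D'⟩ := X.I'.exists_dat
  by_cases z1 : z = 1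
  · exact Or.inl z1
  have k1 := (D'.zc c hc).resolve_left fun k => c1 (X.cc hc.2.1 cP k)
  have k2 := (D'.zc z hz).resolve_left fun k => z1 (X.cc hz.2.1 zP k)
  have k3 : z * c⁻¹ ∈ 𝐂(P') := by
    convert mul_mem k2 (inv_mem k1) using 1; group
  exact Or.inr (mul_inv_eq_one.1 (X.cc ((Om_ea B) _ (mul_mem hz (inv_mem hc))) (mul_mem zP (inv_mem cP)) k3))

theorem U1 (hc : c ∈ Om B) (c1 : c ≠ 1) (cP : c ∈ 𝐂(P)) (I : Intr B Y) (hY : Y ≤ 𝐂[c]) : Y = P := by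
  by_contra n
  have l := loc_cent1 hc.2.1 c1
  have l2 := mem_cent_iff_le_cent1.1 cP
  obtain ⟨x, x1, x2, x3⟩ := X.H.a2 l (X.p.2 _ l l2) X.I l2 I hY (Ne.symm n)
  obtain ⟨r, w, D⟩ := X.I.exists_dat
  have e1 : Commute x r := mem_cent_iff'.1 x3 r D.rW
  have e2 : Commute x c := mem_cent1_iff.1 (hY x1)
  refine I.nc (I.gen x1 x2 (le_cent_Om B) (mem_cent_iff'.2 fun z hz => ?_))
  rcases D.zc z hz with k | k
  · rcases X.zc hc c1 cP hz k with rfl | rfl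
    · simp
    · exact e2
  · rcases X.zc hc c1 cP (mul_mem hz D.rz) k with j | j <;> rw [eq_mul_inv_of_mul_eq j]
    · simpa using e1.inv_right.eq
    · exact e2.mul_right e1.inv_right

theorem U2 (hc : c ∈ Om B) (c1 : c ≠ 1) (cP : c ∈ 𝐂(P)) : 𝐂[c] ≤ 𝐍(P) := by
  have l := loc_cent1 hc.2.1 c1
  have l2 := mem_cent_iff_le_cent1.1 cP
  refine (X.H.a1 l (X.p.2 _ l l2)).trans (sup_le (sSup_le ?_) fun n hn => ?_)
  · rintro Y ⟨I, hY⟩
    rw [X.U1 hc c1 cP I hY]; exact le_normalizer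
  · have := X.I.cj n
    rw [cj_eq_of_mem_normalizer hn.2] at this
    exact mem_normalizer_iff_cj.2 (X.U1 hc c1 cP this (cj_le_of_le l2 hn.1))

theorem U3 (hc : c ∈ Om B) (c1 : c ≠ 1) (cP : c ∈ 𝐂(P)) {B' : Subgroup G} (I : PP B' Y) (hY : Y ≤ 𝐂[c]) :
    Y = P := by
  have l := loc_cent1 hc.2.1 c1
  obtain ⟨U, hU, e⟩ := X.p.2 _ l (mem_cent_iff_le_cent1.1 cP)
  obtain ⟨U', hU', e'⟩ := I.2 _ l hY
  obtain ⟨n, hn, rfl⟩ := SylowIn.exists_cj hU' hU
  have := I.1.cj n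
  rw [← e', cj_Bm, e] at this
  have k := X.U1 hc c1 cP this (cj_le_of_le hY hn)
  rw [cj_eq_iff, cj_eq_of_mem_normalizer (inv_mem (X.U2 hc c1 cP hn))] at k
  exact k

variable (D : Dat B P r w) (D' : Dat B P' r' w') (hc : Commute w w')
include D D' hc

theorem nb (h : Adj r r' r' d) : d ∈ WW P ∧ d ≠ 1 := by
  have k := X.symm.r_cent D' D hc.symm
  obtain ⟨g, ⟨h1, rfl⟩ | ⟨h1, rfl⟩⟩ := h
  · exact ⟨conj_mem_of_mem_normalizer (norms_WW (X.U2 D'.rz D'.r1 k)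
      (mem_cent1_iff.2 (conj_eq_iff_comm.1 h1.symm))) D.rW, by simpa using D.r1⟩
  · refine ⟨?_, by simpa using D'.r1⟩
    rw [← X.U3 D'.rz D'.r1 k (X.p'.cj g) (by
      rw [h1, ← cj_centralizer_singleton]
      exact cj_mono g (mem_cent_iff_le_cent1.1 (X.r_cent D D' hc))), ← cj_WW]
    exact mem_cj'.2 ⟨r', D'.rW, rfl⟩

theorem tri_aux {e' : G} (h1 : Adj r r' (g * r' * g⁻¹) d) (h2 : Adj r r' (g * r' * g⁻¹) e)
    (h3 : Adj r r' (g * r' * g⁻¹) e') (hne : d ≠ e) : e' = d ∨ e' = e ∨ e' = d * e := by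
  obtain ⟨a1, a2⟩ := X.nb D D' hc h1.conj'
  obtain ⟨b1, b2⟩ := X.nb D D' hc h2.conj'
  obtain ⟨c1, c2⟩ := X.nb D D' hc h3.conj'
  have := D.tri X.I a1 b1 c1 a2 b2 c2 (by simpa using hne)
  rw [show g⁻¹ * d * g * (g⁻¹ * e * g) = g⁻¹ * (d * e) * g by group] at this
  simpa using this

theorem tri {e' : G} (h1 : Adj r r' c d) (h2 : Adj r r' c e) (h3 : Adj r r' c e') (hne : d ≠ e) :
    e' = d ∨ e' = e ∨ e' = d * e := by
  obtain ⟨g, ⟨rfl, -⟩ | ⟨rfl, -⟩⟩ := id h1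
  · exact X.tri_aux D D' hc h1 h2 h3 hne
  · exact X.symm.tri_aux D' D hc.symm h1.swap h2.swap h3.swap hne

theorem two_step (h1 : Rr r r' r' c) (h2 : Rr r r' c d) : ∃ g ∈ P, ∃ y ∈ Om (O2 P'), d = g * y * g⁻¹ := by
  have k : ∀ c, Adj r r' r' c → ∃ g ∈ P, c = g * r * g⁻¹ := fun c h => by
    obtain ⟨g, g1, g2⟩ := D.exists_conj X.I (X.nb D D' hc h).1 (X.nb D D' hc h).2
    exact ⟨g, g1, g2.symm⟩
  have m := X.I'.z_le D.rz
  rcases h1.2 with rfl | h1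
  · rcases h2.2 with rfl | h2
    · exact ⟨1, P.one_mem, r', X.I'.z_le D'.rz, by group⟩
    · obtain ⟨g, g1, rfl⟩ := k d h2
      exact ⟨g, g1, r, m, rfl⟩
  · obtain ⟨g, g1, rfl⟩ := k c h1
    rcases h2.2 with rfl | h2
    · exact ⟨g, g1, r, m, rfl⟩
    · exact ⟨g, g1, _, WW_le _ (X.symm.nb D' D hc.symm h2.conj'.swap).1, by group⟩

theorem base_aux (hT : TT w' P) {c0 c1 c3 c4 : G} (h1 : Rr r r' (x * r' * x⁻¹) c1) (h0 : Rr r r' c1 c0)
    (h3 : Rr r r' (x * r' * x⁻¹) c3) (h4 : Rr r r' c3 c4) : Commute c0 c4 := by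
  have e : x⁻¹ * (x * r' * x⁻¹) * x⁻¹⁻¹ = r' := by group
  have h1' := h1.conj x⁻¹
  have h3' := h3.conj x⁻¹
  rw [e] at h1' h3'
  obtain ⟨g, g1, y, y1, e1⟩ := X.two_step D D' hc h1' (h0.conj x⁻¹)
  obtain ⟨g', g1', y', y1', e2⟩ := X.two_step D D' hc h3' (h4.conj x⁻¹)
  have k := P.mul_mem (P.inv_mem g1) g1'
  have := (X.symm.TT_iff D' D hc.symm k y1 y1' (hT _ k)).map (MulAut.conj (x * g)).toMonoidHom
  rw [show c0 = x * (x⁻¹ * c0 * x⁻¹⁻¹) * x⁻¹ by group, show c4 = x * (x⁻¹ * c4 * x⁻¹⁻¹) * x⁻¹ by group, e1, e2]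
  simpa [mul_assoc] using this

theorem base (hT : TT w P') (hT' : TT w' P) (h : Near r r' 4 x y) : Commute x y := by
  obtain ⟨c3, ⟨c2, ⟨c1, ⟨c0, ⟨-, rfl⟩, h0⟩, h1⟩, h3⟩, h4⟩ := h
  obtain ⟨e, g, ⟨rfl, -⟩ | ⟨rfl, -⟩⟩ := h3.1
  · exact X.base_aux D D' hc hT' h1.symm h0.symm h3 h4
  · exact X.symm.base_aux D' D hc.symm hT h1.symm.swap h0.symm.swap h3.swap h4.swap

theorem sq_of_adj (h : Adj r r' c d) : c * c = 1 := by
  obtain ⟨g, ⟨rfl, -⟩ | ⟨rfl, -⟩⟩ := h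
  · exact conj_sq D'.rr g
  · exact conj_sq D.rr g

theorem near_comm (hT : TT w P') (hT' : TT w' P) (n : ℕ) : ∀ x y, Near r r' (n + 4) x y → Commute x y := by
  induction n with
  | zero => exact fun x y => X.base D D' hc hT hT'
  | succ n ih =>
    rintro x y ⟨q, ⟨p, h, hq⟩, hy⟩
    obtain ⟨a, ha, h⟩ := h.left'
    obtain ⟨b, hb, h⟩ := h.left'
    have xp : Near r r' (n + 3) x p := (h.left hb).left ha
    have by' : Near r r' (n + 3) b y := ⟨q, ⟨p, h, hq⟩, hy⟩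
    rcases ha.2 with rfl | ha'
    · exact ih _ _ (by'.left hb)
    rcases hb.2 with rfl | hb'
    · exact ih _ _ (by'.left ha)
    rcases hq.2 with rfl | hq'
    · exact ih _ _ ⟨p, xp, hy⟩
    rcases hy.2 with rfl | hy'
    · exact ih _ _ ⟨p, xp, hq⟩
    have c1 : Commute x q := ih _ _ ⟨p, xp, hq⟩
    have c2 : Commute x p := ih _ _ xp.succ
    have c3 : Commute a y := ih _ _ (by'.left hb)
    have c4 : Commute b y := ih _ _ by'.succ
    by_cases e1 : p = y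
    · exact e1 ▸ c2
    by_cases e2 : b = x
    · exact e2 ▸ c4
    have k1 := hy'.conj x
    rw [conj_eq_iff_comm.2 c1] at k1
    have k2 := ha'.symm.conj y
    rw [conj_eq_iff_comm.2 c3.symm] at k2
    rcases X.tri D D' hc hq'.symm hy' k1 e1 with j | j | j
    · rw [← conj_eq_iff_comm.2 c2] at j
      exact absurd (by simpa using j.symm) e1
    · exact conj_eq_iff_comm.1 j
    rcases X.tri D D' hc hb' ha'.symm k2 e2 with i | i | i
    · rw [← conj_eq_iff_comm.2 c4.symm] at i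
      exact absurd (by simpa using i.symm) e2
    · exact (conj_eq_iff_comm.1 i).symm
    have e3 : p = b := by
      rw [← inv_eq_of_mul_eq_one_right (X.sq_of_adj D D' hc hb'.symm), eq_mul_inv_of_mul_eq j.symm,
        eq_mul_inv_of_mul_eq i.symm]
      group
    subst e3
    exact X.base D D' hc hT hT' ⟨q, ⟨p, ⟨a, ⟨x, ⟨ha.1, rfl⟩, ha⟩, hb⟩, hq⟩, hy⟩

theorem not_TT (hT : TT w P') (hT' : TT w' P) : False := by
  have a0 : Adj r r' r r' := ⟨1, Or.inr ⟨by group, by group⟩⟩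
  have h1 : EA (closure {d | ∃ n, Near r r' n r d}) := by
    refine EA.closure ?_ ?_
    · rintro d ⟨n, h⟩
      obtain ⟨e, he⟩ := h.vx.1
      exact X.sq_of_adj D D' hc he
    · rintro d ⟨n, h⟩ e ⟨m, h'⟩
      exact X.near_comm D D' hc hT hT' _ _ _ ((h.symm.trans h').mono 4)
  have := X.triv _ h1.piGrp (norms_closure ?_) (norms_closure ?_)
  · exact ne_bot_of_mem (subset_closure (show r ∈ {d | ∃ n, Near r r' n r d} from ⟨0, ⟨_, a0⟩, rfl⟩)) D.r1 this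
  · rintro g hg d ⟨n, h⟩
    have k := a0.symm.conj g
    rw [conj_eq_iff_comm.2 (mem_cent_iff.1 (X.symm.r_cent D' D hc.symm) g hg)] at k
    exact ⟨_, ((h.conj g).left k.rr).left a0.rr⟩
  · rintro g hg d ⟨n, h⟩
    have k := h.conj g
    rw [conj_eq_iff_comm.2 (mem_cent_iff.1 (X.r_cent D D' hc) g hg)] at k
    exact ⟨_, k⟩

omit hc in
theorem not_comm : ¬ Commute w w' := fun hc => by
  by_cases hT : TT w P' <;> by_cases hT' : TT w' P
  · exact X.not_TT D D' hc hT hT'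
  · exact X.symm.not_NT D' D hc.symm hT' hT
  · exact X.not_NT D D' hc hT hT'
  · exact X.not_NN D D' hc hT hT'

omit hc in
theorem wn : w ∉ O2 P' := fun k => X.not_comm D D' (Om_comm D'.wz k)

omit D D' hc in
theorem q_ea : EA (O2 P) := by
  obtain ⟨r, w, D⟩ := X.I.exists_dat
  obtain ⟨r', w', D'⟩ := X.I'.exists_dat
  have key : ∀ {P P' : Subgroup G} {r w r' w' : G}, Pair B P P' → Dat B P r w → Dat B P' r' w' →
      {x | ∃ q ∈ O2 P, x = q * q} ⊆ {x | ∃ q ∈ O2 P', x = q * q} := by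
    rintro P P' r w r' w' X D D' _ ⟨q, hq, rfl⟩
    by_cases k : q ∈ O2 P'
    · exact ⟨q, k, rfl⟩
    · refine ⟨_, X.I'.mul_q (X.I.q_le hq) (X.I.q_le D.wz.1) k (X.wn D D'), ?_⟩
      rw [← pow_two, ← pow_two, (Om_comm D.wz hq).mul_pow, pow_two w, D.ww, mul_one]
  have nn : ∀ {P : Subgroup G}, P ≤ 𝐍(closure {x | ∃ q ∈ O2 P, x = q * q}) := fun {P} => by
    refine norms_closure ?_
    rintro g hg _ ⟨q, hq, rfl⟩
    exact ⟨_, conj_mem_of_mem_normalizer (piCoreOf_norm _ P hg) hq, by group⟩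
  have e := Set.Subset.antisymm (key X D D') (key X.symm D' D)
  have := X.triv _ ((piCoreOf_piGrp {2} P).of_le ((closure_le _).2 (by
    rintro _ ⟨q, hq, rfl⟩; exact mul_mem hq hq))) nn (e ▸ nn)
  intro q hq
  exact mem_bot.1 (this ▸ subset_closure ⟨q, hq, rfl⟩)

end Pair

end CA.ZN
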