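/-
Recognition of `S₄` and a form of Thompson's transfer lemma.
-/
import Cfsg.Agent.Lib.ZN.J

set_option autoImplicit false

namespace CA.ZN

open Cfsg Subgroup CA

theorem s4_iso {Γ : Type*} [Group Γ] [Finite Γ] (h24 : Nat.card Γ = 24) (W : Subgroup Γ) [W.Normal]
    (hW : Nat.card W = 4) (hc : 𝐂(W) ≤ W) (hmin : ∀ K : Subgroup Γ, K.Normal → K ⊓ W ≠ ⊥ → W ≤ K) :
    Nonempty (Γ ≃* Equiv.Perm (Fin 4)) := by
  classical
  have : Fact (Nat.Prime 3) := ⟨Nat.prime_three⟩
  have key : ∀ K : Subgroup Γ, K.Normal → ¬ 4 ∣ Nat.card K → K = ⊥ := by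
    intro K hK h4
    have h1 : K ⊓ W = ⊥ := by
      by_contra n
      exact h4 (hW ▸ card_dvd_of_le' (hmin K hK n))
    have h2 : K ≤ W := (cents_of_norms_of_disjoint (le_top.trans (normalIn_top K).norm)
      (le_top.trans (normalIn_top W).norm) h1).trans hc
    rwa [inf_eq_left.2 h2] at h1
  obtain ⟨T⟩ : Nonempty (Sylow 3 Γ) := inferInstance
  have hT : Nat.card T = 3 := by
    rw [T.card_eq_multiplicity, h24, show 24 = 3 * 8 from rfl,
      Nat.factorization_mul (by decide) (by decide)]
    simp [Nat.prime_three.factorization, Nat.factorization_eq_zero_of_not_dvd]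
  have hi : (T : Subgroup Γ).index = 8 := by
    have := (T : Subgroup Γ).card_mul_index
    rw [hT, h24] at this; omega
  have h1 := T.card_dvd_index
  have h2 := card_sylow_modEq_one 3 Γ
  have h3 : Nat.card (Sylow 3 Γ) ≠ 1 := fun e => by
    have : Subsingleton (Sylow 3 Γ) := (Nat.card_eq_one_iff_unique.1 e).1
    have := key T T.normal_of_subsingleton (by rw [hT]; decide)
    rw [this, card_bot] at hT
    omega
  have h4 : Nat.card (Sylow 3 Γ) = 4 := by
    rw [hi] at h1
    have := Nat.le_of_dvd (by decide) h1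
    generalize Nat.card (Sylow 3 Γ) = n at *
    unfold Nat.ModEq at h2
    interval_cases n <;> omega
  have h5 : Nat.card 𝐍(T) = 6 := by
    have := 𝐍(T).card_mul_index
    rw [← T.card_eq_index_normalizer, h4, h24] at this; omega
  let φ := MulAction.toPermHom Γ (Sylow 3 Γ)
  have h6 : φ.ker = ⊥ := key _ inferInstance fun k => by
    have : φ.ker ≤ 𝐍(T) := fun g hg => by
      rw [← T.stabilizer_eq_normalizer]
      exact congrArg (fun σ : Equiv.Perm _ => σ T) hg
    have := k.trans (card_dvd_of_le' this)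
    rw [h5] at this
    exact absurd this (by decide)
  have := Fintype.ofFinite (Sylow 3 Γ)
  have h7 : Function.Bijective φ := (Nat.bijective_iff_injective_and_card φ).2
    ⟨(MonoidHom.ker_eq_bot_iff φ).1 h6, by rw [Nat.card_perm, h4, h24]; rfl⟩
  exact ⟨(MulEquiv.ofBijective φ h7).trans (Finite.equivFinOfCardEq h4).permCongrHom⟩

theorem not_mem_odd {G : Type*} [Group G] [Finite G] (M : Subgroup G) (hi : M.index % 4 = 2) {c : G}
    (hc : c * c = 1) (h : ∀ g : G, g⁻¹ * c * g ∉ M) : c ∉ closure {g : G | Odd (orderOf g)} := by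
  classical
  intro hm
  have := Fintype.ofFinite (G ⧸ M)
  let φ := MulAction.toPermHom G (G ⧸ M)
  have h0 : closure {g : G | Odd (orderOf g)} ≤ (Equiv.Perm.sign.comp φ).ker := by
    refine (closure_le _).2 fun g hg => ?_
    have h1 : (Equiv.Perm.sign.comp φ g) ^ orderOf g = 1 := by rw [← map_pow, pow_orderOf_eq_one, map_one]
    rcases Int.units_eq_one_or (Equiv.Perm.sign.comp φ g) with k | k
    · exact k
    · rw [k, Odd.neg_one_pow hg] at h1
      exact absurd h1 (by decide)
  have h1 : Equiv.Perm.sign (φ c) = 1 := h0 hm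
  have h2 : φ c ^ 2 = 1 := by rw [← map_pow, pow_two, hc, map_one]
  rw [Equiv.Perm.sign_of_pow_two_eq_one h2] at h1
  have h3 : Fintype.card (Function.fixedPoints (φ c)) = 0 := by
    rw [Fintype.card_eq_zero_iff]
    refine ⟨fun ⟨x, hx⟩ => ?_⟩
    obtain ⟨g, rfl⟩ := QuotientGroup.mk_surjective x
    have : ((c * g : G) : G ⧸ M) = g := hx
    rw [eq_comm, QuotientGroup.eq, ← mul_assoc] at this
    exact h g this
  rw [h3, Nat.sub_zero, ← Nat.card_eq_fintype_card, ← index, Odd.neg_one_pow ⟨M.index / 4, by omega⟩] at h1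
  exact absurd h1 (by decide)

end CA.ZN
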