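/-
Identification of the two parabolics and the transfer argument.
-/
import Cfsg.Agent.Lib.ZN.Graph
import Cfsg.Agent.Lib.ZN.S4

set_option autoImplicit false
set_option linter.unusedSectionVars false

namespace CA.ZN

open Cfsg Subgroup CA

universe u

variable {G : Type u} [Group G] [Finite G] {A B N R S U Y P P' : Subgroup G}
  {a b c d e q t x y z g h r w r' w' : G}

theorem Dat.card_W (D : Dat B P r w) (I : Intr B P) : Nat.card (WW P) = 4 := by
  have hn : w ∈ 𝐍(zpowers r) := norms_zpowers_of_cent1 (X := zpowers w)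
    (zpowers_le.2 (mem_cent1_iff.2 (D.rw_comm I).symm)) (mem_zpowers w)
  have e : WW P = zpowers r ⊔ zpowers w := by
    refine le_antisymm (fun y hy => ?_) (sup_le (zpowers_le.2 D.rW) (zpowers_le.2 D.wW))
    have a : r ∈ zpowers r ⊔ zpowers w := mem_sup_left (mem_zpowers r)
    have b : w ∈ zpowers r ⊔ zpowers w := mem_sup_right (mem_zpowers w)
    rcases (D.mem y).1 hy with rfl | rfl | rfl | rfl
    exacts [one_mem _, a, b, mul_mem b a]
  rw [e, card_sup_zpowers (p := 2) hn (fun k => D.wn (zpowers_le.2 D.rz k)) (by rw [pow_two, D.ww]; exact one_mem _),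
    Nat.card_zpowers, orderOf_eq_prime (by rw [pow_two, D.rr]) D.r1]

namespace Pair

variable (X : Pair B P P')
include X

theorem q_om (hq : q ∈ O2 P) : q ∈ Om (O2 P) := mem_Om_of hq (X.q_ea q hq) (X.q_ea.cents hq)

theorem ne : P ≠ P' := fun e => X.I.W_ne_bot
  (X.triv _ (X.I.p2.of_le X.I.W_le) (le_norm_WW P) (e ▸ le_norm_WW P))

theorem inter (h1 : g ∈ P) (h2 : g ∈ P') : g ∈ B := by
  by_contra n
  exact X.ne (X.I.eq_of_le X.I' (X.I.gen h1 n X.I'.le h2))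

theorem bm : Bm B = B := by
  obtain ⟨U, -, e⟩ := X.p.2 _ (loc_of (X.I.p2.of_le X.I.W_le) X.I.W_ne_bot) (le_norm_WW P)
  rw [← e, Bm_Bm]

theorem r_eq (D : Dat B P r w) (D' : Dat B P' r' w') : r' = r := by
  have e1 := D.act w' (X.I'.q_le D'.wz.1) (X.symm.wn D' D)
  have e2 := D'.act w (X.I.q_le D.wz.1) (X.wn D D')
  have a := (Om_ea _).inv D.wz
  have b := (Om_ea _).inv D'.wz
  have k1 : r⁻¹ = (w⁻¹ * (w' * w * w'⁻¹))⁻¹ := by rw [e1]; group
  have k2 : r' = w'⁻¹ * (w * w' * w⁻¹) := by rw [e2]; group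
  rw [← (Om_ea _).inv D.rz, k1, k2]
  simp only [mul_inv_rev, a, b, mul_assoc]

theorem q_dec (D : Dat B P r w) (hq : q ∈ O2 P) : ∃ c ∈ Om B, c ∈ 𝐂(P) ∧ ∃ u ∈ WW P, q = c * u := by
  rcases D.zp q (X.q_om hq) with k | k
  · rcases D.zc q k with j | j
    · exact ⟨q, k, j, 1, one_mem _, by group⟩
    · exact ⟨_, mul_mem k D.rz, j, r⁻¹, inv_mem D.rW, by group⟩
  · rcases D.zc _ k with j | j
    · exact ⟨_, k, j, w⁻¹, inv_mem D.wW, by group⟩
    · exact ⟨_, mul_mem k D.rz, j, (w * r)⁻¹, inv_mem D.wrW, by group⟩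

theorem norm_W : 𝐍(WW P) = P := by
  have I := X.I
  obtain ⟨r, w, D⟩ := I.exists_dat
  have l := loc_of (I.p2.of_le I.W_le) I.W_ne_bot
  have pn := le_norm_WW P
  have L := X.H.lh _ l
  have hg := X.p.2 _ l pn
  obtain ⟨U, hU, e⟩ := id hg
  have ub : U ≤ B := fun u hu => by
    have un : u ∈ 𝐍(B) := e ▸ norms_Bm le_normalizer hu
    have I2 := I.cj u
    have D2 := D.cj u
    rw [cj_eq_of_mem_normalizer un] at I2 D2
    have up : P = cj u P := by
      by_contra n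
      obtain ⟨x, x1, x2, x3⟩ := X.H.a2 l hg I pn I2 (cj_le_of_le pn (hU.le hu)) n
      rw [← cj_eq_of_mem_normalizer (hU.le hu), cj_WW] at x3
      exact x2 (I2.q_le (D2.cent_W_le I2 x1 x3))
    have zn := norms_Om (le_refl 𝐍(B)) un
    have cn := norms_cent (le_refl 𝐍(P)) (mem_normalizer_iff_cj.2 up.symm)
    have k1 : Commute u r := conj_eq_iff_comm.1 ((D.inter (conj_mem_of_mem_normalizer (hU.le hu) D.rW)
      (conj_mem_of_mem_normalizer zn D.rz)).resolve_left (by simpa using D.r1))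
    have k2 : ∀ z ∈ Om B, z ∈ 𝐂(P) → Commute u z := fun z hz hz' => by
      by_cases z1 : z = 1
      · rw [z1]; exact Commute.one_right u
      · exact conj_eq_iff_comm.1 ((X.zc hz z1 hz' (conj_mem_of_mem_normalizer zn hz)
          (conj_mem_of_mem_normalizer cn hz')).resolve_left (by simpa using z1))
    rw [← e, Bm_eq, e]
    refine ⟨hu, mem_cent_iff'.2 fun z hz => ?_⟩
    rcases D.zc z hz with k | k
    · exact k2 z hz k
    · simpa using ((k2 _ (mul_mem hz D.rz) k).mul_right k1.inv_right).eq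
  have o1 : O2 𝐍(WW P) ≤ O2 P := le_piCoreOf ⟨(hU.piCoreOf_le.trans ub).trans I.le,
    pn.trans (piCoreOf_norm _ _)⟩ (piCoreOf_piGrp _ _)
  have o2 : O2 𝐍(WW P) = O2 P := le_antisymm o1
    ((le_inf ((piCoreOf_le _ P).trans pn) (X.q_ea.cents.trans (cent_mono o1))).trans L.c2)
  have qn : 𝐍(WW P) ≤ 𝐍(O2 P) := o2 ▸ piCoreOf_norm _ _
  have k3 : 𝐂(WW P) ≤ O2 P := by
    rw [← o2]
    refine le_piCoreOf (cent_normalIn_normalizer _) (IsPGroup.piGrp (fun n => ⟨2, Subtype.ext ?_⟩) Nat.prime_two)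
    obtain ⟨n, hn⟩ := n
    have hn' := centralizer_le_normalizer _ hn
    have : n * n ∈ O2 P := by
      rw [← o2]
      refine L.c2 ⟨mul_mem hn' hn', mem_cent_iff'.2 fun q hq => conj_eq_iff_comm.1 ?_⟩
      rw [o2] at hq
      obtain ⟨u, hu, eu⟩ : ∃ u ∈ WW P, n * q * n⁻¹ = q * u := by
        by_cases k : q ∈ WW P
        · exact ⟨1, one_mem _, by rw [conj_eq_of_mem_cent hn k, mul_one]⟩
        obtain ⟨c, c1, c2, u, hu, rfl⟩ := X.q_dec D hq
        obtain ⟨c', c1', c2', u', hu', e'⟩ := X.q_dec D (conj_mem_of_mem_normalizer (qn hn') hq)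
        have c0 : c ≠ 1 := fun j => k (by rw [j, one_mul]; exact hu)
        rcases X.zc c1 c0 c2 c1' c2' with j | j
        · rw [j, one_mul] at e'
          rw [← e'] at hu'
          exact k.elim (by convert conj_inv_mem_of_mem_normalizer hn' hu' using 1; group)
        · exact ⟨u⁻¹ * u', mul_mem (inv_mem hu) hu', by rw [e', j]; group⟩
      rw [show n * n * q * (n * n)⁻¹ = n * (n * q * n⁻¹) * n⁻¹ by group, eu,
        show n * (q * u) * n⁻¹ = n * q * n⁻¹ * (n * u * n⁻¹) by group, eu, conj_eq_of_mem_cent hn hu, mul_assoc,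
        (WW_le P hu).2.1, mul_one]
    show n ^ 2 ^ 2 = 1
    rw [← X.q_ea _ this, show 2 ^ 2 = 2 * 2 from rfl, pow_mul, pow_two, pow_two]
  refine le_antisymm (fun n hn => ?_) pn
  obtain ⟨p, hp, k⟩ := D.exists_cent I hn
  exact (mul_mem_cancel_left (inv_mem hp)).1 (piCoreOf_le _ P (k3 k))

theorem cent_c (hc : c ∈ Om B) (c1 : c ≠ 1) (cP : c ∈ 𝐂(P)) : 𝐂[c] = P :=
  le_antisymm (((X.U2 hc c1 cP).trans (norms_WW le_rfl)).trans X.norm_W.le) (mem_cent_iff_le_cent1.1 cP)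

variable (D : Dat B P r w) (D' : Dat B P' r w')
include D D'

theorem b_dec (hb : b ∈ B) : b ∈ O2 P ∨ b * w' ∈ O2 P := by
  by_cases k : b ∈ O2 P
  · exact Or.inl k
  · exact Or.inr (X.I.mul_q hb (X.I'.q_le D'.wz.1) k (X.symm.wn D' D))

theorem sq_b (hb : b ∈ B) : b * b = 1 ∨ b * b = r := by
  rcases X.b_dec D D' hb with k | k
  · exact Or.inl (X.q_ea b k)
  · have e : b * b = (b * w') * (w'⁻¹ * (b * w') * w'⁻¹⁻¹) := by
      rw [inv_inv, show b * w' * (w'⁻¹ * (b * w') * w') = b * b * (w' * w') by group, D'.ww, mul_one]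
    rcases D.conj_or (X.q_om k) (B.inv_mem (X.I'.q_le D'.wz.1)) with j | j <;> rw [e, j]
    · exact Or.inl (X.q_ea _ k)
    · right; rw [← mul_assoc, X.q_ea _ k, one_mul]

theorem sq_ww : w' * w * (w' * w) = r := by
  have e := D.act w' (X.I'.q_le D'.wz.1) (X.symm.wn D' D)
  rw [(Om_ea _).inv D'.wz] at e
  rw [← mul_assoc, e, ← D.rw_comm X.I, mul_assoc, D.ww, mul_one]

theorem fix_r (hg : g ∈ 𝐍(B)) : g * r * g⁻¹ = r := by
  have m := conj_mem_of_mem_normalizer hg (mul_mem (X.I'.q_le D'.wz.1) (X.I.q_le D.wz.1))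
  have e : g * r * g⁻¹ = g * (w' * w) * g⁻¹ * (g * (w' * w) * g⁻¹) := by rw [← X.sq_ww D D']; group
  exact e.trans ((X.sq_b D D' m).resolve_left (by rw [← e]; simpa using D.r1))

theorem qq_le (h1 : y ∈ O2 P) (h2 : y ∈ O2 P') : y ∈ Om B := by
  by_contra n
  exact X.symm.wn D' D (D.mem_q (X.q_om h1) n (X.I'.q_le D'.wz.1) (Om_comm D'.wz h2).symm)

theorem mem_E : y ∈ WW P ⊔ WW P' ↔ y ∈ WW P ∨ y * w' ∈ WW P := by
  have hn : w' ∈ 𝐍(WW P) := le_norm_WW P (X.I.le (X.I'.q_le D'.wz.1))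
  rw [← mem_sup_zpowers_inv D'.ww hn]
  have : WW P ⊔ WW P' = WW P ⊔ zpowers w' := by
    refine le_antisymm (sup_le le_sup_left fun y hy => ?_) (sup_le_sup_left (zpowers_le.2 D'.wW) _)
    have a : r ∈ WW P ⊔ zpowers w' := mem_sup_left D.rW
    have b : w' ∈ WW P ⊔ zpowers w' := mem_sup_right (mem_zpowers w')
    rcases (D'.mem y).1 hy with rfl | rfl | rfl | rfl
    exacts [one_mem _, a, b, mul_mem b a]
  rw [this]

theorem card_E : Nat.card ↥(WW P ⊔ WW P') = 8 := by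
  have i : (WW P).relIndex (WW P ⊔ WW P') = 2 := idx2_of (mem_sup_right D'.wW)
    (fun k => X.symm.wn D' D (WW_le P k).1) fun b hb => (X.mem_E D D').1 hb
  rw [← card_mul_relIndex le_sup_left, i, D.card_W X.I]

theorem E_cases (hy : y ∈ WW P ⊔ WW P') : ∃ ρ, (ρ = 1 ∨ ρ = r) ∧ (y = ρ ∨ y = w * ρ ∨ y = w' * ρ ∨ y = w * w' * ρ) := by
  have c := D'.rw_comm X.I'
  rcases (X.mem_E D D').1 hy with k | k
  · rcases (D.mem y).1 k with j | j | j | j
    · exact ⟨1, by simp, by simp [j]⟩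
    · exact ⟨r, by simp, by simp [j]⟩
    · exact ⟨1, by simp, by simp [j]⟩
    · exact ⟨r, by simp, by simp [j]⟩
  · rcases (D.mem _).1 k with j | j | j | j <;> rw [← eq_mul_inv_iff_mul_eq, (Om_ea _).inv D'.wz] at j
    · exact ⟨1, by simp, by simp [j]⟩
    · exact ⟨r, by simp, by simp [j, c]⟩
    · exact ⟨1, by simp, by simp [j]⟩
    · exact ⟨r, by simp, by simp [j, c, mul_assoc]⟩

theorem inv_E (hy : y ∈ WW P ⊔ WW P') (h2 : y * y = 1) (h1 : y ≠ 1) : ∃ g : G, g * r * g⁻¹ = y := by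
  have k : y ∈ WW P ∨ y ∈ WW P' := by
    obtain ⟨ρ, h, j⟩ := X.E_cases D D' hy
    have a : ρ ∈ WW P := by rcases h with rfl | rfl; exacts [one_mem _, D.rW]
    have a' : ρ ∈ WW P' := by rcases h with rfl | rfl; exacts [one_mem _, D'.rW]
    have a'' : ρ ∈ Om B := by rcases h with rfl | rfl; exacts [one_mem _, D.rz]
    rcases j with rfl | rfl | rfl | rfl
    · exact Or.inl a
    · exact Or.inl (mul_mem D.wW a)
    · exact Or.inr (mul_mem D'.wW a')
    · exfalso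
      rw [← pow_two, (Om_comm a'' (mul_mem (X.I.q_le D.wz.1) (X.I'.q_le D'.wz.1))).mul_pow, pow_two, pow_two,
        X.symm.sq_ww D' D, a''.2.1, mul_one] at h2
      exact D.r1 h2
  rcases k with k | k
  · obtain ⟨g, -, e⟩ := D.exists_conj X.I k h1
    exact ⟨g, e⟩
  · obtain ⟨g, -, e⟩ := D'.exists_conj X.I' k h1
    exact ⟨g, e⟩

omit D D' in
theorem E_le : WW P ⊔ WW P' ≤ B := sup_le X.I.W_le X.I'.W_le

section c

variable (hc : c ∈ Om B) (c1 : c ≠ 1) (cP : c ∈ 𝐂(P))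
include hc c1 cP

theorem cr : c * r ∈ 𝐂(P') ∧ c * r ≠ 1 :=
  ⟨(D'.zc c hc).resolve_left fun k => c1 (X.cc hc.2.1 cP k), fun k => D.r_nc X.I
    (by rw [eq_inv_of_mul_eq_one_right k]; exact inv_mem cP)⟩

theorem not_conj (g : G) : g * c * g⁻¹ ≠ r := fun e => by
  have e1 : 𝐂[r] = cj g P := by rw [← X.cent_c hc c1 cP, cj_centralizer_singleton, e]
  have s1 := X.I.syl.cj g
  have s2 : SylowIn 2 B (cj g P) := s1.of_card_eq (e1 ▸ mem_cent_iff_le_cent1.1 (Om_cents B D.rz)) (card_cj g B).symm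
  obtain ⟨n, hn, e2⟩ := SylowIn.exists_cj s1 s2
  rw [← e1] at hn
  have k := X.fix_r D D' (g := n * g) (by rw [mem_normalizer_iff_cj, cj_mul, ← e2])
  have k2 : n * g * c * (n * g)⁻¹ = r := by
    rw [show n * g * c * (n * g)⁻¹ = n * (g * c * g⁻¹) * n⁻¹ by group, e, conj_eq_iff_comm.2 (mem_cent1_iff.1 hn)]
  rw [← k] at k2
  exact D.r_nc X.I ((by simpa using k2 : c = r) ▸ cP)

theorem not_E (g : G) : g * c * g⁻¹ ∉ WW P ⊔ WW P' := fun k => by
  obtain ⟨x, e⟩ := X.inv_E D D' k (conj_sq hc.2.1 g) (by simpa using c1)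
  exact X.not_conj D D' hc c1 cP (x⁻¹ * g) (by
    rw [show x⁻¹ * g * c * (x⁻¹ * g)⁻¹ = x⁻¹ * (g * c * g⁻¹) * x by group, ← e]; group)

theorem z_cases (hz : z ∈ Om B) : z = 1 ∨ z = r ∨ z = c ∨ z = c * r := by
  rcases D.zc z hz with k | k
  · rcases X.zc hc c1 cP hz k with j | j <;> simp [j]
  · rcases X.zc hc c1 cP (mul_mem hz D.rz) k with j | j <;>
      rw [← eq_mul_inv_iff_mul_eq, (Om_ea _).inv D.rz] at j <;> simp [j]

theorem b_E (hb : b ∈ B) : b ∈ WW P ⊔ WW P' ∨ b * c ∈ WW P ⊔ WW P' := by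
  have k : ∀ q ∈ O2 P, q ∈ WW P ∨ q * c ∈ WW P := fun q hq => by
    obtain ⟨c', h1, h2, u, hu, rfl⟩ := X.q_dec D hq
    rcases X.zc hc c1 cP h1 h2 with rfl | rfl
    · left; simpa using hu
    · right; rwa [mul_assoc, (Om_comm hc (X.I.W_le hu)).eq, ← mul_assoc, hc.2.1, one_mul]
  simp only [X.mem_E D D']
  rcases X.b_dec D D' hb with j | j <;> rcases k _ j with i | i
  · exact Or.inl (Or.inl i)
  · exact Or.inr (Or.inl i)
  · exact Or.inl (Or.inr i)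
  · right; right
    rwa [mul_assoc, ← (Om_comm hc (X.I'.q_le D'.wz.1)).eq, ← mul_assoc]

theorem card_B : Nat.card B = 16 := by
  have i : (WW P ⊔ WW P').relIndex B = 2 := idx2_of hc.1 (by simpa using X.not_E D D' hc c1 cP 1)
    fun b hb => X.b_E D D' hc c1 cP hb
  rw [← card_mul_relIndex X.E_le, i, X.card_E D D']

variable (hS : SylowIn 2 S ⊤) (hBS : B ≤ S)
include hS hBS

omit D D' in
theorem mem_B (h1 : t ∈ S) (h2 : Commute t c) : t ∈ B :=
  (X.I.syl.eq_of_le (le_inf hBS X.I.le) inf_le_right (hS.piGrp.of_le inf_le_left)).le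
    ⟨h1, X.cent_c hc c1 cP ▸ mem_cent1_iff.2 h2⟩

theorem swap (h1 : t ∈ S ⊓ 𝐍(B)) (h2 : t ∉ B) : t * c * t⁻¹ = c * r ∧ cj t P = P' ∧ cj t P' = P := by
  have e : t * c * t⁻¹ = c * r := by
    rcases X.z_cases D D' hc c1 cP (conj_mem_of_mem_normalizer (norms_Om le_rfl h1.2) hc) with k | k | k | k
    · exact absurd (by simpa using k) c1
    · exact absurd k (X.not_conj D D' hc c1 cP t)
    · exact absurd (X.mem_B hc c1 cP hS hBS h1.1 (conj_eq_iff_comm.1 k)) h2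
    · exact k
  obtain ⟨k1, k2⟩ := X.cr D D' hc c1 cP
  have e1 := X.cent_c hc c1 cP
  have e2 := X.symm.cent_c (mul_mem hc D.rz) k2 k1
  refine ⟨e, by rw [← e1, cj_centralizer_singleton, e, e2], ?_⟩
  rw [← e2, cj_centralizer_singleton, show t * (c * r) * t⁻¹ = t * c * t⁻¹ * (t * r * t⁻¹) by group, e,
    X.fix_r D D' h1.2, mul_assoc, D.rr, mul_one, e1]

theorem idxT (h1 : t ∈ S ⊓ 𝐍(B)) (h2 : t ∉ B) : B.relIndex (S ⊓ 𝐍(B)) = 2 := by
  refine idx2_of h1 h2 fun b hb => ?_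
  by_cases k : b ∈ B
  · exact Or.inl k
  refine Or.inr (X.mem_B hc c1 cP hS hBS (mul_mem hb.1 h1.1) (conj_eq_iff_comm.1 ?_))
  rw [show b * t * c * (b * t)⁻¹ = b * (t * c * t⁻¹) * b⁻¹ by group, (X.swap D D' hc c1 cP hS hBS h1 h2).1,
    show b * (c * r) * b⁻¹ = b * c * b⁻¹ * (b * r * b⁻¹) by group, (X.swap D D' hc c1 cP hS hBS hb k).1,
    X.fix_r D D' hb.2, mul_assoc, D.rr, mul_one]

theorem JJ_T : JJ (S ⊓ 𝐍(B)) ≤ B := by
  refine JJ_le_of fun A hA t ht => ?_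
  by_contra n
  have ht' := hA.le ht
  obtain ⟨e, e1, e2⟩ := X.swap D D' hc c1 cP hS hBS ht' n
  have i1 : (A ⊓ B).relIndex A = 2 := idx2_of ht (fun k => n k.2) fun b hb => by
    by_cases k : b ∈ B
    · exact Or.inl ⟨hb, k⟩
    · exact Or.inr ⟨mul_mem hb ht, idx2 (X.idxT D D' hc c1 cP hS hBS ht' n) (hA.le hb) ht' k n⟩
  have l1 : A ⊓ B ≤ zpowers r := fun y hy => by
    have f := conj_eq_iff_comm.2 (hA.ea.comm ht hy.1)
    have y2 := hA.ea y hy.1
    have k1 : y ∈ O2 P ∨ y ∈ O2 P' := by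
      by_contra k
      push Not at k
      have q1 := (X.b_dec D D' hy.2).resolve_left k.1
      have q2 : y * w' ∉ Om B := fun j => k.2 ((mul_mem_cancel_right D'.wz.1).1 (X.I'.zq j))
      have q3 := D.act' (X.q_om q1) q2 (X.I'.q_le D'.wz.1) (X.symm.wn D' D)
      have q4 : y * w' * (w' * (y * w') * w'⁻¹) = 1 := by
        rw [show y * w' * (w' * (y * w') * w'⁻¹) = y * (w' * w') * y by group, D'.ww, mul_one, y2]
      rw [q3, ← mul_assoc, X.q_ea _ q1, one_mul] at q4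
      exact D.r1 q4
    have k2 : y ∈ Om B := by
      rcases k1 with k | k
      · refine X.qq_le D D' k ?_
        rw [← e1, ← cj_O2, ← f]; exact mem_cj'.2 ⟨y, k, rfl⟩
      · refine X.qq_le D D' ?_ k
        rw [← e2, ← cj_O2, ← f]; exact mem_cj'.2 ⟨y, k, rfl⟩
    rcases X.z_cases D D' hc c1 cP k2 with j | j | j | j <;> rw [j] at f ⊢
    · exact one_mem _
    · exact mem_zpowers r
    · rw [e] at f; exact absurd (by simpa using f) D.r1
    · rw [show t * (c * r) * t⁻¹ = t * c * t⁻¹ * (t * r * t⁻¹) by group, e, X.fix_r D D' ht'.2] at f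
      exact absurd (by simpa using f) D.r1
  have c2 := card_le_of_le' l1
  rw [Nat.card_zpowers, orderOf_eq_prime (p := 2) (by rw [pow_two, D.rr]) D.r1] at c2
  have c3 := card_mul_relIndex (inf_le_left : A ⊓ B ≤ A)
  have c4 := card_le_mm (X.I.q_le.trans (le_inf hBS le_normalizer)) X.q_ea
  have c5 := X.I.card_B
  rw [X.card_B D D' hc c1 cP] at c5
  rw [i1, hA.card] at c3
  omega

theorem S_le : S ≤ 𝐍(B) := by
  have e := JJ_eq_of_le (X.JJ_T D D' hc c1 cP hS hBS) (le_inf hBS le_normalizer)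
  have e2 : Om (JJ (S ⊓ 𝐍(B))) = Om B := by rw [← e, ← Om_Bm, X.bm]
  have e3 : S ⊓ 𝐂(Om B) = B := le_antisymm
    (fun t ht => X.mem_B hc c1 cP hS hBS ht.1 (mem_cent_iff'.1 ht.2 c hc)) (le_inf hBS (le_cent_Om B))
  refine inf_eq_left.1 (eq_of_inf_normalizer_le (hS.isPGroup Nat.prime_two) inf_le_left (le_inf inf_le_left ?_))
  conv_rhs => rw [← e3]
  refine norms_inf (norms_self_of_le inf_le_left) (norms_cent ?_)
  rw [← e2]
  exact norms_Om (norms_JJ inf_le_right)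

omit D' in
theorem dat_t (D' : Dat B P' r w') (h1 : t ∈ S ⊓ 𝐍(B)) (h2 : t ∉ B) : Dat B P' r (t * w * t⁻¹) := by
  have := D.cj t
  rwa [cj_eq_of_mem_normalizer h1.2, (X.swap D D' hc c1 cP hS hBS h1 h2).2.1, X.fix_r D D' h1.2] at this

theorem sq_E (h1 : t ∈ S ⊓ 𝐍(B)) (h2 : t ∉ B) : t * t ∈ WW P ⊔ WW P' := by
  have D2 := X.dat_t D hc c1 cP hS hBS D' h1 h2
  obtain ⟨e, e1, e2⟩ := X.swap D D' hc c1 cP hS hBS h1 h2
  have fr := X.fix_r D D' h1.2
  have k := idx2 (X.idxT D D' hc c1 cP hS hBS h1 h2) h1 h1 h2 h2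
  refine (X.b_E D D' hc c1 cP k).resolve_right fun k1 => ?_
  have k2 : t * (t * t * c) * t⁻¹ = t * t * c * r := by rw [mul_assoc _ c, ← e]; group
  have wB := X.I.q_le D.wz.1
  have k3 : t * (t * w * t⁻¹) * t⁻¹ = t * t * c * w * (t * t * c)⁻¹ := by
    rw [show t * t * c * w * (t * t * c)⁻¹ = t * t * (c * w * c⁻¹) * (t * t)⁻¹ by group,
      conj_eq_iff_comm.2 (Om_comm hc wB).symm]
    group
  have n := X.symm.wn D2 D
  have m : ∀ y ∈ O2 P', t * y * t⁻¹ ∈ O2 P := fun y hy => by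
    rw [← e2, ← cj_O2]; exact mem_cj'.2 ⟨y, hy, rfl⟩
  obtain ⟨ρ, h, j⟩ := X.E_cases D D2 k1
  have a : ρ ∈ Om B := by rcases h with rfl | rfl; exacts [one_mem _, D.rz]
  have a' : t * ρ * t⁻¹ = ρ := by rcases h with rfl | rfl; exacts [by simp, fr]
  have rq := X.I.zq D.rz
  have aq := X.I.zq a
  generalize hu : t * w * t⁻¹ = u at *
  generalize t * t * c = d at *
  rcases j with rfl | rfl | rfl | rfl
  · rw [a'] at k2; exact D.r1 (by simpa using k2)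
  · rw [show t * (w * ρ) * t⁻¹ = t * w * t⁻¹ * (t * ρ * t⁻¹) by group, hu, a'] at k2
    exact n ((mul_mem_cancel_right aq).1 (k2 ▸ mul_mem (mul_mem D.wz.1 aq) rq))
  · exact n ((mul_mem_cancel_right aq).1 ((mul_mem_cancel_right rq).1
      (k2 ▸ m _ (mul_mem D2.wz.1 (X.I'.zq a)))))
  · have k4 : w * u * ρ * w * (w * u * ρ)⁻¹ = w * r := by
      rw [show w * u * ρ * w * (w * u * ρ)⁻¹ = w * (u * (ρ * w * ρ⁻¹) * u⁻¹) * w⁻¹ by group,
        conj_eq_iff_comm.2 (Om_comm a wB).symm, D.act u (X.I'.q_le D2.wz.1) n,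
        conj_eq_iff_comm.2 ((Commute.refl w).mul_right (Om_comm D.rz wB))]
    rw [show t * (w * u * ρ) * t⁻¹ = t * w * t⁻¹ * (t * u * t⁻¹) * (t * ρ * t⁻¹) by group, hu, a', k3, k4,
      mul_assoc (w * u), (Om_ea B).comm a D.rz, ← mul_assoc, ← mul_assoc] at k2
    exact X.not_comm D D2 (mul_right_cancel (mul_right_cancel k2)).symm

theorem no_inv (h1 : t ∈ S ⊓ 𝐍(B)) (h2 : t ∉ B) (tt : t * t = 1) (he : e ∈ WW P ⊔ WW P') :
    e * (t * c) * (e * (t * c)) ≠ 1 := fun k => by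
  have D2 := X.dat_t D hc c1 cP hS hBS D' h1 h2
  obtain ⟨e0, -, -⟩ := X.swap D D' hc c1 cP hS hBS h1 h2
  have fr := X.fix_r D D' h1.2
  have eB := conj_mem_of_mem_normalizer h1.2 (X.E_le he)
  have k1 : e * (t * e * t⁻¹) = r := by
    rw [show e * (t * c) * (e * (t * c)) = e * (t * c * t⁻¹) * (t * e * t⁻¹) * (t * t) * c by group, tt, e0,
      mul_one, mul_assoc e, ← (Om_comm (mul_mem hc D.rz) eB).eq, mul_assoc e, mul_assoc _ (c * r),
      mul_assoc c, (Om_ea B).comm D.rz hc, ← mul_assoc c, hc.2.1, one_mul, ← mul_assoc] at k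
    rw [eq_inv_of_mul_eq_one_left k, (Om_ea B).inv D.rz]
  have k3 : t * (t * w * t⁻¹) * t⁻¹ = w := by
    rw [show t * (t * w * t⁻¹) * t⁻¹ = t * t * w * (t * t)⁻¹ by group, tt]; group
  have n := X.symm.wn D2 D
  obtain ⟨ρ, h, j⟩ := X.E_cases D D2 he
  have a : ρ ∈ Om B := by rcases h with rfl | rfl; exacts [one_mem _, D.rz]
  have a' : t * ρ * t⁻¹ = ρ := by rcases h with rfl | rfl; exacts [by simp, fr]
  have rq := X.I.zq D.rz
  have aq := X.I.zq a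
  have wq := D.wz.1
  generalize hu : t * w * t⁻¹ = u at *
  rcases j with rfl | rfl | rfl | rfl
  · rw [a', a.2.1] at k1; exact D.r1 k1.symm
  · rw [show t * (w * ρ) * t⁻¹ = t * w * t⁻¹ * (t * ρ * t⁻¹) by group, hu, a'] at k1
    exact n ((mul_mem_cancel_right aq).1 ((mul_mem_cancel_left (mul_mem wq aq)).1 (k1 ▸ rq)))
  · rw [show t * (u * ρ) * t⁻¹ = t * u * t⁻¹ * (t * ρ * t⁻¹) by group, k3, a'] at k1
    exact n ((mul_mem_cancel_right aq).1 ((mul_mem_cancel_right (mul_mem wq aq)).1 (k1 ▸ rq)))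
  · rw [show t * (w * u * ρ) * t⁻¹ = t * w * t⁻¹ * (t * u * t⁻¹) * (t * ρ * t⁻¹) by group, hu, a', k3,
      mul_assoc (w * u), ← mul_assoc ρ, ← (Om_comm a (mul_mem (X.I'.q_le D2.wz.1) (X.I.q_le wq))).eq,
      mul_assoc (u * w), a.2.1, mul_one, mul_assoc, ← mul_assoc u, D2.ww, one_mul, D.ww] at k1
    exact D.r1 k1.symm

omit hS hBS in
theorem c_not_mem : c ∉ closure {g : G | Odd (orderOf g)} := by
  obtain ⟨S, hS, hBS⟩ := exists_sylowIn_ge X.I.p2 (le_top : B ≤ ⊤)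
  have hn := X.S_le D D' hc c1 cP hS hBS
  have odd : ∀ M : Subgroup G, M ≤ S → Nat.card S = Nat.card M * 2 → M.index % 4 = 2 := fun M h1 h2 => by
    have h3 := SylowIn.not_dvd hS Nat.prime_two
    rw [relIndex_top_right] at h3
    rw [← relIndex_mul_index h1, relIndex_eq_of_card_eq_mul h1 h2]
    omega
  by_cases h : S ≤ B
  · refine not_mem_odd _ (odd _ (X.E_le.trans hBS) ?_) hc.2.1 fun g => by simpa using X.not_E D D' hc c1 cP g⁻¹
    rw [le_antisymm h hBS, X.card_B D D' hc c1 cP, X.card_E D D']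
  obtain ⟨t, ht, ht'⟩ := SetLike.not_le_iff_exists.1 h
  obtain ⟨s, hs, hs', hi⟩ : ∃ s ∈ S, s ∉ B ∧ ∀ e ∈ WW P ⊔ WW P', e * s * (e * s) ≠ 1 := by
    by_cases k : ∀ e ∈ WW P ⊔ WW P', e * t * (e * t) ≠ 1
    · exact ⟨t, ht, ht', k⟩
    push Not at k
    obtain ⟨e, he, k⟩ := k
    have m1 := S.mul_mem (hBS (X.E_le he)) ht
    have m2 : e * t ∉ B := fun j => ht' ((mul_mem_cancel_left (X.E_le he)).1 j)
    exact ⟨e * t * c, S.mul_mem m1 (hBS hc.1), fun j => m2 ((mul_mem_cancel_right hc.1).1 j),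
      fun e' he' => X.no_inv D D' hc c1 cP hS hBS ⟨m1, hn m1⟩ m2 k he'⟩
  obtain ⟨-, e1, e2⟩ := X.swap D D' hc c1 cP hS hBS ⟨hs, hn hs⟩ hs'
  have sn : s ∈ 𝐍((WW P ⊔ WW P' : Subgroup G)) := by
    rw [mem_normalizer_iff_cj, cj_sup, cj_WW, cj_WW, e1, e2, sup_comm]
  have s1 : s ∉ WW P ⊔ WW P' := fun k => hs' (X.E_le k)
  have s2 : s ^ 2 ∈ WW P ⊔ WW P' := by rw [pow_two]; exact X.sq_E D D' hc c1 cP hS hBS ⟨hs, hn hs⟩ hs'
  have i1 := relIndex_sup_zpowers sn s1 s2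
  refine not_mem_odd _ (odd _ (sup_le (X.E_le.trans hBS) (zpowers_le.2 hs)) ?_) hc.2.1 fun g k => ?_
  · have i2 := X.idxT D D' hc c1 cP hS hBS ⟨hs, hn hs⟩ hs'
    rw [inf_eq_left.2 hn] at i2
    rw [card_sup_zpowers sn s1 s2, ← card_mul_relIndex hBS, i2, X.card_B D D' hc c1 cP, X.card_E D D']
  · have n : g⁻¹ * c * g ∉ WW P ⊔ WW P' := by simpa using X.not_E D D' hc c1 cP g⁻¹
    have m := idx2 i1 k (inv_mem (mem_sup_right (mem_zpowers s))) n (by simpa using s1)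
    refine hi _ m ?_
    simpa using conj_sq hc.2.1 g⁻¹

end c

end Pair

end CA.ZN
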