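/-
The structure of ZN-groups of local characteristic 2.
-/
import Cfsg.Agent.Lib.ZN.Fin

set_option autoImplicit false
set_option linter.unusedSectionVars false

namespace CA.ZN

open Cfsg Subgroup CA

universe u

variable {G : Type u} [Group G] [Finite G] {A B H N R S U Y P P' : Subgroup G}
  {a b c d e q t x y z g h r w r' w' : G}

theorem odd_conj (hH : H = closure {g : G | Odd (orderOf g)}) (g : G) (hx : x ∈ H) : g * x * g⁻¹ ∈ H := by
  subst hH
  refine conj_mem_of_mem_normalizer (norms_closure (X := ⊤) (fun g _ x hx => ?_) (mem_top g)) hx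
  show Odd (orderOf (g * x * g⁻¹))
  rwa [orderOf_conj']

theorem Intr.exists_h' (I : Intr B P) (hH : H = closure {g : G | Odd (orderOf g)}) : ∃ h ∈ P, h ∉ B ∧ h ∈ H := by
  obtain ⟨h, h1, h2, h3⟩ := I.exists_h
  refine ⟨h, h1, h2, hH ▸ subset_closure ?_⟩
  exact Odd.of_dvd_nat (by decide : Odd 3) (orderOf_dvd_of_pow_eq_one h3)

theorem Intr.W_le_H (I : Intr B P) (hH : H = closure {g : G | Odd (orderOf g)}) : WW P ≤ H := by
  obtain ⟨r, w, D⟩ := I.exists_dat
  obtain ⟨h, h1, h2, h3⟩ := I.exists_h' hH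
  have k : h * r * h⁻¹ * r⁻¹ ∈ H := by
    convert mul_mem h3 (odd_conj hH r (inv_mem h3)) using 1; group
  obtain ⟨g, -, e⟩ := D.exists_conj I (mul_mem (conj_mem_of_mem_normalizer (le_norm_WW P h1) D.rW) (inv_mem D.rW))
    (fun j => h2 (D.mem_B h1 (conj_eq_iff_comm.1 (mul_inv_eq_one.1 j))))
  have k2 : r ∈ H := by
    convert odd_conj hH g⁻¹ (e ▸ k) using 1; group
  intro y hy
  by_cases j : y = 1
  · rw [j]; exact one_mem _
  · obtain ⟨g, -, rfl⟩ := D.exists_conj I hy j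
    exact odd_conj hH g k2

theorem Dat.W_le_of (D : Dat B P r w) (hh : h ∈ P) (hh' : h ∉ B) (h1 : r ∈ Y) (h2 : h * r * h⁻¹ ∈ Y) :
    WW P ≤ Y := by
  have k : w ∈ Y := by
    rcases D.out h hh hh' with k | k <;> rw [k] at h2
    · exact h2
    · exact (mul_mem_cancel_right h1).1 h2
  intro y hy
  rcases (D.mem y).1 hy with rfl | rfl | rfl | rfl
  exacts [one_mem _, h1, k, mul_mem k h1]

namespace Pair

variable (X : Pair B P P') (D : Dat B P r w) (D' : Dat B P' r w') (hH : H = closure {g : G | Odd (orderOf g)})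
include X D D' hH

theorem zH (hz : z ∈ Om B) (h : z ∈ H) : z = 1 ∨ z = r := by
  rcases D.zc z hz with k | k
  · left
    by_contra n
    exact X.c_not_mem D D' hz n k (hH ▸ h)
  · right
    by_contra n
    refine X.c_not_mem D D' (mul_mem hz D.rz) (fun j => n ?_) k (hH ▸ mul_mem h (X.I.W_le_H hH D.rW))
    rw [eq_inv_of_mul_eq_one_left j, (Om_ea _).inv D.rz]

theorem qH (hq : q ∈ O2 P) (h : q ∈ H) : q ∈ WW P := by
  rcases D.zp q (X.q_om hq) with k | k
  · rcases X.zH D D' hH k h with rfl | rfl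
    exacts [one_mem _, D.rW]
  · refine (mul_mem_cancel_right D.wW).1 ?_
    rcases X.zH D D' hH k (mul_mem h (X.I.W_le_H hH D.wW)) with j | j <;> rw [j]
    exacts [one_mem _, D.rW]

theorem bH : B ⊓ H = WW P ⊔ WW P' := by
  refine le_antisymm (fun b hb => (X.mem_E D D').2 ?_)
    (le_inf X.E_le (sup_le (X.I.W_le_H hH) (X.I'.W_le_H hH)))
  exact (X.b_dec D D' hb.1).imp (fun k => X.qH D D' hH k hb.2)
    fun k => X.qH D D' hH k (mul_mem hb.2 (X.I'.W_le_H hH D'.wW))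

omit X D D' in
theorem pH_normal : P ⊓ H ⊴ P :=
  ⟨inf_le_left, norms_inf le_normalizer fun g _ => mem_normalizer_of_cj_le (cj_le_iff'.2 fun _ => odd_conj hH g)⟩

theorem card_pH : Nat.card ↥(P ⊓ H) = 24 := by
  obtain ⟨h, h1, h2, h3⟩ := X.I.exists_h' hH
  have c := card_sup_mul_card_inf (A := B) (B := P ⊓ H) (Or.inr (X.I.le.trans (pH_normal hH).norm))
  rw [le_antisymm (sup_le X.I.le inf_le_left) (X.I.gen h1 h2 le_sup_left (mem_sup_right ⟨h1, h3⟩)), ← inf_assoc,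
    inf_eq_left.2 X.I.le, X.bH D D' hH, X.card_E D D', X.I.card_P, mul_assoc] at c
  have := Nat.eq_of_mul_eq_mul_left (card_pos' B) c
  omega

theorem iso : Nonempty (P.subgroupOf H ≃* Equiv.Perm (Fin 4)) := by
  obtain ⟨h, h1, h2, h3⟩ := X.I.exists_h' hH
  have wl : WW P ≤ P ⊓ H := le_inf (X.I.W_le.trans X.I.le) (X.I.W_le_H hH)
  have : ((WW P).subgroupOf (P ⊓ H)).Normal :=
    NormalIn.normal_subgroupOf ⟨wl, inf_le_left.trans (le_norm_WW P)⟩
  obtain ⟨e⟩ := s4_iso (X.card_pH D D' hH) ((WW P).subgroupOf (P ⊓ H))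
    (by rw [card_subgroupOf_of_le wl, D.card_W X.I]) (fun x hx => by
      rw [← subgroupOf_cent wl] at hx
      exact X.qH D D' hH (D.cent_W_le X.I x.2.1 hx) x.2.2) (fun K hK hn => by
      obtain ⟨y, ⟨y1, y2⟩, y3⟩ := exists_ne_one_mem' hn
      have n := (normalIn_map_subtype K).norm
      obtain ⟨g, hg, e⟩ := D.exists_conj X.I y2 (by simpa using y3)
      obtain ⟨g', hg', e'⟩ : ∃ g' ∈ P ⊓ H, g' * r * g'⁻¹ = y := by
        obtain ⟨b, hb, p, hp, rfl⟩ := (mem_sup_of_norm_right (X.I.le.trans (pH_normal hH).norm)).1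
          (X.I.gen h1 h2 le_sup_right (mem_sup_left (show h ∈ P ⊓ H from ⟨h1, h3⟩)) hg)
        rw [show b * p * r * (b * p)⁻¹ = b * (p * r * p⁻¹) * b⁻¹ by group, D.fixB hp] at e
        exact ⟨b, hb, e⟩
      have k : r ∈ K.map (P ⊓ H).subtype := by
        convert conj_inv_mem_of_mem_normalizer (n hg') (mem_map_of_mem _ y1) using 1
        rw [coe_subtype, ← e']; group
      have := D.W_le_of h1 h2 k (conj_mem_of_mem_normalizer (n ⟨h1, h3⟩) k)
      intro x hx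
      obtain ⟨x', h', e⟩ := this hx
      rwa [← Subtype.ext e])
  exact ⟨((MulEquiv.subgroupCongr (inf_subgroupOf_right P H).symm).trans (subgroupOfEquivOfLe inf_le_right)).trans e⟩

theorem eq_W (hR : PiGrp {2} R) (h0 : R ≠ ⊥) (hRH : R ≤ H) (hn : P ⊓ H ≤ 𝐍(R)) : R = WW P := by
  obtain ⟨h, h1, h2, h3⟩ := X.I.exists_h' hH
  have hp := hR.isPGroup Nat.prime_two
  obtain ⟨e, e1, e2, e3, e4⟩ := exists_order_p_fixed ((X.I.p2.of_le (inf_le_left : B ⊓ H ≤ B)).isPGroup Nat.prime_two)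
    ((inf_le_inf_right H X.I.le).trans hn) (hR.dvd_card_of_ne_bot h0)
  rw [X.bH D D' hH, cent_sup] at e2
  have e5 : e ∈ B := X.inter (X.norm_W ▸ centralizer_le_normalizer _ e2.1)
    (X.symm.norm_W ▸ centralizer_le_normalizer _ e2.2)
  have e6 : e = r := (X.zH D D' hH (X.qq_le D D' (D.cent_W_le X.I (X.I.le e5) e2.1)
    (D'.cent_W_le X.I' (X.I'.le e5) e2.2)) (hRH e1)).resolve_left e3
  rw [e6] at e1
  refine (eq_of_inf_normalizer_le hp (D.W_le_of h1 h2 e1 (conj_mem_of_mem_normalizer (hn ⟨h1, h3⟩) e1)) ?_).symm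
  rw [X.norm_W]
  intro x hx
  refine X.qH D D' hH (piCoreOf_le_of_normalIn _ (pH_normal hH) (le_piCoreOf (N := R ⊓ P)
    ⟨le_inf inf_le_right (inf_le_left.trans hRH), norms_inf hn (norms_self_of_le inf_le_left)⟩
    (hR.of_le inf_le_left) hx)) (hRH hx.1)

theorem maximal : IsMaximalTwoLocal (P.subgroupOf H) := by
  have wl := X.I.W_le_H hH
  have e : P.subgroupOf H = 𝐍((WW P).subgroupOf H) := by rw [← subgroupOf_norm wl, X.norm_W]
  refine ⟨e ▸ loc_of ((X.I.p2.of_le X.I.W_le).subgroupOf H) fun k => X.I.W_ne_bot ?_, ?_⟩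
  · rwa [subgroupOf_eq_bot, disjoint_iff, inf_eq_left.2 wl] at k
  · rintro _ ⟨T, t1, t2, rfl⟩ hle
    have k := X.eq_W D D' hH (piGrp_map_subtype.2 (t1.piGrp Nat.prime_two))
      (fun j => t2 ((map_eq_bot_iff_of_injective _ H.subtype_injective).1 j)) (map_subtype_le T) (fun x hx => by
        have := (subgroupOf_norm (map_subtype_le T)).ge
        rw [subgroupOf_map_subtype'] at this
        exact this (hle (show (⟨x, hx.2⟩ : H) ∈ P.subgroupOf H from hx.1)))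
    rw [e, ← k, subgroupOf_map_subtype']

end Pair

theorem GH.main (K : GH G) (hH : H = closure {g : G | Odd (orderOf g)}) :
    (∃ K : Subgroup G, IsStronglyEmbedded K) ∨
      ∃ M₁ M₂ : Subgroup H, M₁ ≠ M₂ ∧ IsMaximalTwoLocal M₁ ∧ IsMaximalTwoLocal M₂ ∧
        Nonempty (M₁ ≃* Equiv.Perm (Fin 4)) ∧ Nonempty (M₂ ≃* Equiv.Perm (Fin 4)) ∧ Nat.card ↥(M₁ ⊓ M₂) = 8 := by
  refine or_iff_not_imp_left.2 fun hse => ?_
  obtain ⟨B, P, P', h1, h2, h3⟩ := K.exists_pair hse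
  have X : Pair B P P' := ⟨K, h1, h2, h3⟩
  obtain ⟨r, w, D⟩ := X.I.exists_dat
  obtain ⟨r', w', D'⟩ := X.I'.exists_dat
  obtain rfl := X.r_eq D D'
  refine ⟨P.subgroupOf H, P'.subgroupOf H, fun e => ?_, X.maximal D D' hH, X.symm.maximal D' D hH,
    X.iso D D' hH, X.symm.iso D' D hH, ?_⟩
  · obtain ⟨h, a, b, c⟩ := X.I.exists_h' hH
    have : (⟨h, c⟩ : H) ∈ P'.subgroupOf H := e ▸ a
    exact b (X.inter a this)
  · rw [← subgroupOf_inf', card_subgroupOf, le_antisymm (fun g hg => X.inter hg.1 hg.2) (le_inf X.I.le X.I'.le),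
      X.bH D D' hH, X.card_E D D']

end CA.ZN
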